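import Cfsg.Agent.FieldExtMax.Basic

/-!
A vector space carrying the tensor product of an alternating and a symmetric form: contractions,
tensor maps, and the root elements of a tensor decomposition.
-/

set_option autoImplicit false
set_option linter.unusedSectionVars false

namespace CfsgLib.FormTensor91

open Module CfsgLib.FieldExtMax

/-- The data of a tensor decomposition of an alternating form. -/
structure Setting (F A B V : Type*) [Field F] [AddCommGroup A] [Module F A] [AddCommGroup B]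
    [Module F B] [AddCommGroup V] [Module F V] where
  /-- the alternating factor -/
  om : LinearMap.BilinForm F A
  /-- the symmetric factor -/
  be : LinearMap.BilinForm F B
  /-- the form -/
  form : LinearMap.BilinForm F V
  /-- the pure tensors -/
  tp : A →ₗ[F] B →ₗ[F] V
  two : (2 : F) ≠ 0
  om_alt : ∀ a, om a a = 0
  om_nd : ∀ a, (∀ c, om a c = 0) → a = 0
  be_symm : ∀ u v, be u v = be v u
  be_nd : ∀ u, (∀ v, be u v = 0) → u = 0
  form_alt : ∀ X, form X X = 0
  form_tp : ∀ a w a' w', form (tp a w) (tp a' w') = om a a' * be w w'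
  form_ext : ∀ X, (∀ a w, form X (tp a w) = 0) → X = 0

variable {F A B V : Type*} [Field F] [AddCommGroup A] [Module F A] [AddCommGroup B]
  [Module F B] [AddCommGroup V] [Module F V] (S : Setting F A B V)

namespace Setting

lemma om_skew (a c : A) : S.om c a = -S.om a c := by
  have := S.om_alt (a + c)
  simp only [map_add, LinearMap.add_apply, S.om_alt, zero_add, add_zero] at this
  exact eq_neg_of_add_eq_zero_left this

lemma form_skew (X Y : V) : S.form Y X = -S.form X Y := by
  have := S.form_alt (X + Y)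
  simp only [map_add, LinearMap.add_apply, S.form_alt, zero_add, add_zero] at this
  exact eq_neg_of_add_eq_zero_left this

lemma om_zero_comm {a c : A} (h : S.om a c = 0) : S.om c a = 0 := by rw [S.om_skew, h, neg_zero]

lemma form_zero_comm {X Y : V} (h : S.form X Y = 0) : S.form Y X = 0 := by
  rw [S.form_skew, h, neg_zero]

lemma om_eq_of_forall {a c : A} (h : ∀ x, S.om a x = S.om c x) : a = c :=
  sub_eq_zero.1 (S.om_nd _ fun x => by simp [h])

lemma be_eq_of_forall {u v : B} (h : ∀ x, S.be u x = S.be v x) : u = v :=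
  sub_eq_zero.1 (S.be_nd _ fun x => by simp [h])

lemma be_nondeg : S.be.Nondegenerate :=
  ⟨S.be_nd, fun y h => S.be_nd y fun x => by rw [S.be_symm]; exact h x⟩

lemma om_nondeg : S.om.Nondegenerate :=
  ⟨S.om_nd, fun y h => S.om_nd y fun x => by rw [S.om_skew, h x, neg_zero]⟩

variable [FiniteDimensional F A] [FiniteDimensional F B]

/-- The contraction with a vector of the alternating factor. -/
noncomputable def pi : A →ₗ[F] V →ₗ[F] B :=
  LinearMap.mk₂ F (fun a X => (S.be.toDual S.be_nondeg).symm ((S.form X).comp (S.tp a)))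
    (fun a a' X => by simp [LinearMap.comp_add])
    (fun c a X => by simp [LinearMap.comp_smul])
    (fun a X X' => by simp [LinearMap.add_comp])
    (fun c a X => by simp [LinearMap.smul_comp])

/-- The contraction with a vector of the symmetric factor. -/
noncomputable def con : B →ₗ[F] V →ₗ[F] A :=
  LinearMap.mk₂ F (fun w X => (S.om.toDual S.om_nondeg).symm ((S.form X).comp (S.tp.flip w)))
    (fun a a' X => by simp [LinearMap.comp_add])
    (fun c a X => by simp [LinearMap.comp_smul])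
    (fun a X X' => by simp [LinearMap.add_comp])
    (fun c a X => by simp [LinearMap.smul_comp])

lemma be_pi (a : A) (X : V) (w : B) : S.be (S.pi a X) w = S.form X (S.tp a w) := by
  rw [← LinearMap.BilinForm.toDual_def S.be_nondeg]
  simp [pi]

lemma om_con (w : B) (X : V) (a : A) : S.om (S.con w X) a = S.form X (S.tp a w) := by
  rw [← LinearMap.BilinForm.toDual_def S.om_nondeg]
  simp [con]

@[simp] lemma pi_tp (a c : A) (w : B) : S.pi a (S.tp c w) = S.om c a • w :=
  S.be_eq_of_forall fun v => by rw [S.be_pi, S.form_tp, map_smul, LinearMap.smul_apply, smul_eq_mul]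

@[simp] lemma con_tp (v w : B) (c : A) : S.con v (S.tp c w) = S.be w v • c :=
  S.om_eq_of_forall fun x => by
    rw [S.om_con, S.form_tp, map_smul, LinearMap.smul_apply, smul_eq_mul, mul_comm]

lemma ext_pi {X Y : V} (h : ∀ a, S.pi a X = S.pi a Y) : X = Y :=
  sub_eq_zero.1 (S.form_ext _ fun a w => by
    rw [map_sub, LinearMap.sub_apply, ← S.be_pi, ← S.be_pi, h, sub_self])

lemma be_pi_con (X : V) (a : A) (w : B) : S.be (S.pi a X) w = S.om (S.con w X) a := by
  rw [S.be_pi, S.om_con]

section expansion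

variable {κ : Type*} [Fintype κ] [DecidableEq κ] (b : Basis κ F B)

/-- The expansion of a vector along a basis of the symmetric factor. -/
lemma expand (X : V) :
    X = ∑ i, S.tp (S.con (b i) X) (S.be.dualBasis S.be_nondeg b i) := by
  refine S.ext_pi fun a => ?_
  rw [map_sum]
  simp only [pi_tp, ← S.be_pi_con]
  conv_lhs => rw [← (S.be.dualBasis S.be_nondeg b).sum_repr (S.pi a X)]
  simp only [LinearMap.BilinForm.dualBasis_repr_apply]

end expansion

/-- Linear maps agreeing on pure tensors are equal. -/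
lemma hom_ext {W : Type*} [AddCommGroup W] [Module F W] {f g : V →ₗ[F] W}
    (h : ∀ a w, f (S.tp a w) = g (S.tp a w)) : f = g := by
  classical
  refine LinearMap.ext fun X => ?_
  rw [S.expand (Module.finBasis F B) X, map_sum, map_sum]
  exact Finset.sum_congr rfl fun i _ => h _ _

/-- A tensor map. -/
def IsT (g : V ≃ₗ[F] V) : Prop :=
  ∃ (x : A ≃ₗ[F] A) (y : B ≃ₗ[F] B), ∀ a w, g (S.tp a w) = S.tp (x a) (y w)

lemma isT_mul {g h : V ≃ₗ[F] V} (hg : S.IsT g) (hh : S.IsT h) : S.IsT (g * h) := by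
  obtain ⟨x, y, hg⟩ := hg
  obtain ⟨x', y', hh⟩ := hh
  exact ⟨x'.trans x, y'.trans y, fun a w => by simp [hh, hg]⟩

lemma isT_inv {g : V ≃ₗ[F] V} (hg : S.IsT g) : S.IsT g⁻¹ := by
  obtain ⟨x, y, hg⟩ := hg
  refine ⟨x.symm, y.symm, fun a w => g.injective ?_⟩
  rw [hg, x.apply_symm_apply, y.apply_symm_apply]
  exact g.apply_symm_apply _

/-- The tensor product of two linear maps. -/
noncomputable def tmap (x : A →ₗ[F] A) (y : B →ₗ[F] B) : V →ₗ[F] V :=
  ∑ i, (S.tp.flip (y (S.be.dualBasis S.be_nondeg (Module.finBasis F B) i))) ∘ₗ x ∘ₗ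
    S.con (Module.finBasis F B i)

@[simp] lemma tmap_tp (x : A →ₗ[F] A) (y : B →ₗ[F] B) (a : A) (w : B) :
    S.tmap x y (S.tp a w) = S.tp (x a) (y w) := by
  conv_rhs => rw [← (S.be.dualBasis S.be_nondeg (Module.finBasis F B)).sum_repr w, map_sum, map_sum]
  rw [tmap, LinearMap.sum_apply]
  refine Finset.sum_congr rfl fun i _ => ?_
  simp [LinearMap.BilinForm.dualBasis_repr_apply]

/-- The tensor product of two automorphisms. -/
noncomputable def tequiv (x : A ≃ₗ[F] A) (y : B ≃ₗ[F] B) : V ≃ₗ[F] V :=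
  LinearEquiv.ofLinearMap (S.tmap (x : A →ₗ[F] A) (y : B →ₗ[F] B))
    (S.tmap (x.symm : A →ₗ[F] A) (y.symm : B →ₗ[F] B))
    (S.hom_ext fun a w => by simp) (S.hom_ext fun a w => by simp)

@[simp] lemma tequiv_tp (x : A ≃ₗ[F] A) (y : B ≃ₗ[F] B) (a : A) (w : B) :
    S.tequiv x y (S.tp a w) = S.tp (x a) (y w) := by simp [tequiv]

lemma isT_tequiv (x : A ≃ₗ[F] A) (y : B ≃ₗ[F] B) : S.IsT (S.tequiv x y) :=
  ⟨x, y, S.tequiv_tp x y⟩

lemma form_ext_tp {φ ψ : LinearMap.BilinForm F V}
    (h : ∀ a w a' w', φ (S.tp a w) (S.tp a' w') = ψ (S.tp a w) (S.tp a' w')) : φ = ψ :=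
  S.hom_ext fun a w => S.hom_ext fun a' w' => h a w a' w'

lemma preserves_of_tp {g : V ≃ₗ[F] V}
    (h : ∀ a w a' w', S.form (g (S.tp a w)) (g (S.tp a' w')) = S.om a a' * S.be w w') (X Y : V) :
    S.form (g X) (g Y) = S.form X Y := by
  have := S.form_ext_tp (φ := S.form.compl₁₂ (g : V →ₗ[F] V) (g : V →ₗ[F] V)) (ψ := S.form)
    fun a w a' w' => by simp [h, S.form_tp]
  exact LinearMap.congr_fun₂ this X Y

/-- The member `a ⊗ B`. -/
def mem (a : A) : Submodule F V := LinearMap.range (S.tp a)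

omit [FiniteDimensional F A] [FiniteDimensional F B] in
lemma mem_mem {a : A} {X : V} : X ∈ S.mem a ↔ ∃ w, S.tp a w = X := LinearMap.mem_range

omit [FiniteDimensional F A] [FiniteDimensional F B] in
lemma tp_mem (a : A) (w : B) : S.tp a w ∈ S.mem a := S.mem_mem.2 ⟨w, rfl⟩

omit [FiniteDimensional F A] [FiniteDimensional F B] in
lemma exists_om_one {a : A} (ha : a ≠ 0) : ∃ a', S.om a a' = 1 := by
  obtain ⟨y, hy⟩ : ∃ y, S.om a y ≠ 0 := by
    by_contra! h0
    exact ha (S.om_nd a h0)
  exact ⟨(S.om a y)⁻¹ • y, by simp [inv_mul_cancel₀ hy]⟩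

lemma tp_injective {a : A} (ha : a ≠ 0) : Function.Injective (S.tp a) := by
  obtain ⟨a', h⟩ := S.exists_om_one ha
  exact fun u v huv => by simpa [h] using congrArg (S.pi a') huv

lemma finrank_mem {a : A} (ha : a ≠ 0) : finrank F (S.mem a) = finrank F B := by
  rw [mem, LinearMap.finrank_range_of_inj (S.tp_injective ha)]

/-- A vector killed by all contractions orthogonal to `a` lies in the member of `a`. -/
lemma eq_tp_of_pi {a a' : A} (h : S.om a a' = 1) {X : V}
    (hX : ∀ c, S.om a c = 0 → S.pi c X = 0) : X = S.tp a (S.pi a' X) := by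
  refine S.ext_pi fun c => ?_
  have h1 := hX (c - S.om a c • a') (by simp [h])
  rw [map_sub, map_smul, LinearMap.sub_apply, LinearMap.smul_apply, sub_eq_zero] at h1
  rw [pi_tp, h1]

lemma pi_eq_zero_iff {a : A} {X : V} : S.pi a X = 0 ↔ ∀ w, S.form X (S.tp a w) = 0 := by
  refine ⟨fun h w => ?_, fun h => S.be_nd _ fun w => ?_⟩
  · rw [← S.be_pi, h, map_zero, LinearMap.zero_apply]
  · rw [S.be_pi, h]

/-- The root map with coefficient `τ`. -/
noncomputable def root (a : A) (τ : B →ₗ[F] B) : V →ₗ[F] V := S.tp a ∘ₗ τ ∘ₗ S.pi a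

@[simp] lemma root_apply (a : A) (τ : B →ₗ[F] B) (X : V) :
    S.root a τ X = S.tp a (τ (S.pi a X)) := rfl

/-- The unipotent map attached to two orthogonal vectors. -/
noncomputable def sieg (a c : A) (φ φ' τ : B →ₗ[F] B) : V →ₗ[F] V :=
  S.tp c ∘ₗ φ' ∘ₗ S.pi a + S.tp a ∘ₗ (φ ∘ₗ S.pi c + τ ∘ₗ S.pi a)

@[simp] lemma sieg_apply (a c : A) (φ φ' τ : B →ₗ[F] B) (X : V) :
    S.sieg a c φ φ' τ X = S.tp c (φ' (S.pi a X)) + S.tp a (φ (S.pi c X) + τ (S.pi a X)) := rfl

end Setting

end CfsgLib.FormTensor91
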