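import Cfsg.Agent.FormTensor91.Coeff

/-!
A singular rank-one coefficient makes every vector a transvection centre.
-/

set_option autoImplicit false
set_option linter.unusedSectionVars false

namespace CfsgLib.FormTensor91

open Module CfsgLib.FieldExtMax

variable {F A B V : Type*} [Field F] [AddCommGroup A] [Module F A] [AddCommGroup B]
  [Module F B] [AddCommGroup V] [Module F V] [FiniteDimensional F A] [FiniteDimensional F B]
  {S : Setting F A B V} {M : Subgroup (V ≃ₗ[F] V)}

/-- The transvection map with centre `v`. -/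
noncomputable def Setting.tr (S : Setting F A B V) (c : F) (v : V) : V →ₗ[F] V :=
  (LinearMap.toSpanSingleton F V v).comp (c • S.form.flip v)

@[simp] lemma Setting.tr_apply (S : Setting F A B V) (c : F) (v X : V) :
    S.tr c v X = (c * S.form X v) • v := by simp [Setting.tr]

/-- A transvection centre. -/
def Centre (S : Setting F A B V) (M : Subgroup (V ≃ₗ[F] V)) (v : V) : Prop :=
  ∀ c, InM M (S.tr c v)

namespace Centre

lemma zero : Centre S M 0 := fun c => InM.zero.congr fun X => by simp

lemma smul {v : V} (h : Centre S M v) (k : F) : Centre S M (k • v) := fun c =>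
  (h (c * (k * k))).congr fun X => by simp [smul_smul]; ring_nf

lemma image (H : Over S M) {v : V} (h : Centre S M v) {g : V ≃ₗ[F] V} (hg : g ∈ M) :
    Centre S M (g v) := fun c => ((h c).conj hg).congr fun X => by
  obtain ⟨X, rfl⟩ := g.surjective X
  change _ = g (S.tr c v (g.symm (g X)))
  rw [g.symm_apply_apply, Setting.tr_apply, Setting.tr_apply, H.iso g hg, map_smul]

lemma add (H : Over S M) {v w : V} (hv : Centre S M v) (hw : Centre S M w)
    (hne : S.form v w ≠ 0) : Centre S M (v + w) := by
  obtain ⟨e, he, hey⟩ := hw (S.form v w)⁻¹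
  have := hv.image H he
  rwa [hey, Setting.tr_apply, inv_mul_cancel₀ hne, one_smul] at this

end Centre

/-- All pure tensors over `w` are centres. -/
def PureCentre (S : Setting F A B V) (M : Subgroup (V ≃ₗ[F] V)) (w : B) : Prop :=
  ∀ a, Centre S M (S.tp a w)

namespace Over

lemma pureCentre_of_coeff (H : Over S M) {s : B} (h : Coeff S M (S.sym2 s s)) :
    PureCentre S M s := fun a c => by
  have h2 := S.two
  refine (H.coeff_smul h (c / 2) a).congr fun X => ?_
  simp only [Setting.root_apply, LinearMap.smul_apply, Setting.sym2_apply, Setting.tr_apply,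
    ← S.be_pi, map_smul, map_add]
  rw [← add_smul, smul_smul]
  congr 1
  field_simp
  ring

lemma pureCentre_image (H : Over S M) {w : B} (h : PureCentre S M w) (y : B ≃ₗ[F] B)
    (hy : ∀ u u', S.be (y u) (y u') = S.be u u') : PureCentre S M (y w) := fun a => by
  simpa using (h a).image H (H.right_mem y hy)

lemma pureCentre_smul (_H : Over S M) {w : B} (h : PureCentre S M w) (k : F) :
    PureCentre S M (k • w) := fun a => by
  rw [map_smul]; exact (h a).smul k

lemma pureCentre_singular (H : Over S M) {s : B} (hs0 : s ≠ 0) (hs : S.be s s = 0)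
    (h : PureCentre S M s) {t : B} (ht : S.be t t = 0) : PureCentre S M t := by
  have key : ∀ p q, S.be p p = 0 → S.be q q = 0 → S.be p q ≠ 0 → PureCentre S M p →
      PureCentre S M q := by
    intro p q hp hq hpq hP
    have hn : S.be (p - q) (p - q) = -2 * S.be p q := by
      simp only [map_sub, LinearMap.sub_apply, hp, hq, S.be_symm q p]
      ring
    have hn0 : S.be (p - q) (p - q) ≠ 0 := by
      rw [hn]; exact mul_ne_zero (neg_ne_zero.2 S.two) hpq
    have := H.pureCentre_image hP (S.reflEquiv hn0) (S.be_refl hn0)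
    have h2 := S.two
    rw [Setting.reflEquiv_apply, Setting.refl_apply, hn, map_sub, hp, zero_sub] at this
    convert this using 1
    match_scalars <;> field_simp <;> ring
  rcases eq_or_ne t 0 with rfl | ht0
  · intro a; simpa using Centre.zero
  obtain ⟨y, hys, hyt⟩ : ∃ y, S.be y s ≠ 0 ∧ S.be y t ≠ 0 := by
    obtain ⟨y₁, h1, h1'⟩ := S.exists_nonsing_pair hs0
    obtain ⟨y₂, h2, h2'⟩ := S.exists_nonsing_pair ht0
    rw [S.be_symm] at h1' h2'
    by_cases h3 : S.be y₁ t = 0
    · by_cases h4 : S.be y₂ s = 0
      · exact ⟨y₁ + y₂, by simp [h4, h1'], by simp [h3, h2']⟩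
      · exact ⟨y₂, h4, h2'⟩
    · exact ⟨y₁, h1', h3⟩
  by_cases hst : S.be s t = 0
  · set u := y - (S.be y y / (2 * S.be y s)) • s with hu
    have h2 := S.two
    have huu : S.be u u = 0 := by
      simp only [hu, map_sub, map_smul, LinearMap.sub_apply, LinearMap.smul_apply, smul_eq_mul, hs,
        S.be_symm s y]
      field_simp
      ring
    have hus : S.be s u ≠ 0 := by
      simpa [hu, hs, S.be_symm s y] using hys
    have hut : S.be u t ≠ 0 := by simpa [hu, hst] using hyt
    exact key u t huu ht hut (key s u hs huu hus h)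
  · exact key s t hs ht hst h

lemma pureCentre_all (H : Over S M) [Nontrivial A] {s : B} (hs0 : s ≠ 0) (hs : S.be s s = 0)
    (h : PureCentre S M s) (c : B) : PureCentre S M c := by
  by_cases hc : S.be c c = 0
  · exact H.pureCentre_singular hs0 hs h hc
  intro a
  rcases eq_or_ne a 0 with rfl | ha
  · simpa using Centre.zero
  obtain ⟨a', ha'⟩ := S.exists_om_one ha
  have h'a : S.om a' a = -1 := by rw [S.om_skew a a', ha']
  -- a singular vector not orthogonal to `c`
  obtain ⟨b, hb, hbc⟩ : ∃ b, S.be b b = 0 ∧ S.be b c ≠ 0 := by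
    by_contra! h0
    refine hc ?_
    have hsc : S.be s c = 0 := h0 s hs
    obtain ⟨y, -, hy⟩ := S.exists_nonsing_pair hs0
    rw [S.be_symm] at hy
    have step : ∀ z, S.be z s ≠ 0 → S.be z c = 0 := fun z hz => by
      have h2 := S.two
      have hu : S.be (z - (S.be z z / (2 * S.be z s)) • s) (z - (S.be z z / (2 * S.be z s)) • s) = 0 := by
        simp only [map_sub, map_smul, LinearMap.sub_apply, LinearMap.smul_apply, smul_eq_mul, hs,
          S.be_symm s z]
        field_simp
        ring
      simpa [hsc] using h0 _ hu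
    by_cases hcs : S.be c s = 0
    · have h1 := step (c + y) (by simpa [hcs] using hy)
      simpa [step y hy] using h1
    · exact step c hcs
  set b' := c - (S.be c c / (2 * S.be b c)) • b with hb'
  have h2 := S.two
  have hb'b' : S.be b' b' = 0 := by
    simp only [hb', map_sub, map_smul, LinearMap.sub_apply, LinearMap.smul_apply, smul_eq_mul, hb,
      S.be_symm c b]
    field_simp
    ring
  have hbb' : S.be b b' ≠ 0 := by simpa [hb', hb] using hbc
  set k := S.be c c / (2 * S.be b c) with hk
  have hk0 : k ≠ 0 := div_ne_zero hc (mul_ne_zero h2 hbc)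
  have B1 := H.pureCentre_singular hs0 hs h hb
  have B2 := H.pureCentre_singular hs0 hs h hb'b'
  have hb'b : S.be b' b ≠ 0 := by rwa [S.be_symm]
  have hx : Centre S M (S.tp a b + S.tp a' b') :=
    (B1 a).add H (B2 a') (by rw [S.form_tp, ha', one_mul]; exact hbb')
  have hsum : Centre S M (S.tp a b + S.tp a' b' + S.tp (k⁻¹ • a - a') b') :=
    hx.add H (B2 _) (by
      simp only [map_add, LinearMap.add_apply, map_sub, map_smul, LinearMap.sub_apply,
        LinearMap.smul_apply, smul_eq_mul]
      simp only [S.form_tp, S.om_alt, ha', h'a, hb'b']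
      simpa using hbb')
  have := hsum.smul k
  convert this using 1
  simp only [map_sub, map_smul, LinearMap.sub_apply, LinearMap.smul_apply, hb']
  match_scalars <;> field_simp <;> ring

/-- All vectors are centres once all pure tensors are. -/
lemma centre_all (H : Over S M) (h : ∀ c, PureCentre S M c) (X : V) : Centre S M X := by
  classical
  haveI := invertibleOfNonzero S.two
  obtain ⟨b, hb⟩ := LinearMap.BilinForm.exists_orthogonal_basis (B := S.be)
    ⟨fun u v => by simpa using S.be_symm u v⟩
  have ho : ∀ i j, i ≠ j → S.be (b i) (b j) = 0 := fun i j hij => hb hij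
  have hn : ∀ i, S.be (b i) (b i) ≠ 0 := fun i h0 => b.ne_zero i (S.be_nd _ fun v => by
    rw [← b.sum_repr v, map_sum]
    refine Finset.sum_eq_zero fun j _ => ?_
    rcases eq_or_ne i j with rfl | hij
    · simp [h0]
    · simp [ho i j hij])
  suffices hs : ∀ (s : Finset (Fin (finrank F B))) (a : Fin (finrank F B) → A),
      Centre S M (∑ i ∈ s, S.tp (a i) (b i)) by
    rw [S.expand b X]
    have : ∀ i, S.be.dualBasis S.be_nondeg b i = (S.be (b i) (b i))⁻¹ • b i := fun i =>
      S.be_eq_of_forall fun v => by
        rw [← b.sum_repr v, map_sum, map_sum]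
        refine Finset.sum_congr rfl fun j _ => ?_
        rw [map_smul, LinearMap.BilinForm.apply_dualBasis_left]
        rcases eq_or_ne j i with rfl | hji
        · simp [hn j]
        · simp [hji, ho i j (Ne.symm hji)]
    have := hs Finset.univ fun i => (S.be (b i) (b i))⁻¹ • S.con (b i) X
    simp only [map_smul, LinearMap.smul_apply] at this
    simpa [*] using this
  intro s
  induction hs : s.card using Nat.strong_induction_on generalizing s with
  | _ N ih =>
  intro a
  subst hs
  -- reduction by a non-orthogonal pair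
  have pair : ∀ a : Fin (finrank F B) → A, ∀ j ∈ s, ∀ k ∈ s, S.om (a k) (a j) ≠ 0 →
      Centre S M (∑ i ∈ s, S.tp (a i) (b i)) := by
    intro a j hj k hk hne
    have hkj : k ≠ j := fun h0 => hne (by rw [h0, S.om_alt])
    set p := S.tp (a j) (b j + b k)
    have h1 := ih (s.erase j).card (Finset.card_erase_lt_of_mem hj) (s.erase j) rfl
      (fun i => if i = k then a k - a j else a i)
    have heq : ∑ i ∈ s.erase j, S.tp (if i = k then a k - a j else a i) (b i) =
        (∑ i ∈ s, S.tp (a i) (b i)) - p := by
      have hk' : k ∈ s.erase j := Finset.mem_erase.2 ⟨hkj, hk⟩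
      rw [← Finset.add_sum_erase _ _ hj, ← Finset.add_sum_erase _ _ hk',
        ← Finset.add_sum_erase _ _ hk', if_pos rfl, Finset.sum_congr rfl fun i hi => by
          rw [if_neg (Finset.ne_of_mem_erase hi)]]
      simp only [p, map_sub, LinearMap.sub_apply, map_add]
      abel
    rw [heq] at h1
    have hform : S.form (∑ i ∈ s, S.tp (a i) (b i)) p = S.om (a k) (a j) * S.be (b k) (b k) := by
      rw [map_sum, LinearMap.sum_apply, Finset.sum_eq_single k]
      · simp [p, S.form_tp, ho k j hkj]
      · intro i _ hik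
        rcases eq_or_ne i j with rfl | hij
        · simp [p, S.form_tp, S.om_alt]
        · simp [p, S.form_tp, ho i k hik, ho i j hij]
      · intro h0; exact absurd hk h0
    have := h1.add H (h (b j + b k) (a j)) (by
      change S.form (_ - p) p ≠ 0
      rw [map_sub, LinearMap.sub_apply, S.form_alt, sub_zero, hform]
      exact mul_ne_zero hne (hn k))
    simpa [p] using this
  by_cases hz : ∃ j ∈ s, a j = 0
  · obtain ⟨j, hj, haj⟩ := hz
    have := ih (s.erase j).card (Finset.card_erase_lt_of_mem hj) (s.erase j) rfl a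
    rwa [Finset.sum_erase _ (by simp [haj])] at this
  push Not at hz
  rcases Nat.lt_or_ge s.card 2 with hc | hc
  · rcases (Nat.le_one_iff_eq_zero_or_eq_one.1 (Nat.le_of_lt_succ hc)) with h0 | h1
    · rw [Finset.card_eq_zero.1 h0, Finset.sum_empty]; exact Centre.zero
    · obtain ⟨j, rfl⟩ := Finset.card_eq_one.1 h1
      rw [Finset.sum_singleton]; exact h _ _
  by_cases hp : ∃ j ∈ s, ∃ k ∈ s, S.om (a k) (a j) ≠ 0
  · obtain ⟨j, hj, k, hk, hne⟩ := hp
    exact pair a j hj k hk hne
  push Not at hp
  obtain ⟨j, hj, k, hk, hjk⟩ := Finset.one_lt_card.1 hc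
  obtain ⟨x, hxj, hxk⟩ : ∃ x, S.om (a j) x ≠ 0 ∧ S.om (a k) x ≠ 0 := by
    obtain ⟨x₁, h1⟩ := S.exists_om_one (hz j hj)
    obtain ⟨x₂, h2⟩ := S.exists_om_one (hz k hk)
    by_cases h3 : S.om (a k) x₁ = 0
    · by_cases h4 : S.om (a j) x₂ = 0
      · exact ⟨x₁ + x₂, by simp [h1, h4], by simp [h2, h3]⟩
      · exact ⟨x₂, h4, by simp [h2]⟩
    · exact ⟨x₁, by simp [h1], h3⟩
  have h1 := pair (Function.update a j (a j + x)) j hj k hk (by
    rw [Function.update_self, Function.update_of_ne (Ne.symm hjk), map_add, hp j hj k hk, zero_add]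
    exact hxk)
  have heq : ∑ i ∈ s, S.tp (Function.update a j (a j + x) i) (b i) =
      (∑ i ∈ s, S.tp (a i) (b i)) + S.tp x (b j) := by
    rw [← Finset.add_sum_erase _ _ hj, ← Finset.add_sum_erase _ (fun i => S.tp (a i) (b i)) hj,
      Function.update_self, Finset.sum_congr rfl fun i hi => by
        rw [Function.update_of_ne (Finset.ne_of_mem_erase hi)], map_add, LinearMap.add_apply]
    abel
  rw [heq] at h1
  have := h1.add H ((h (b j) x).smul (-1)) (by
    rw [map_smul, map_add, LinearMap.add_apply, S.form_alt, add_zero, map_sum, LinearMap.sum_apply,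
      Finset.sum_eq_single j (fun i _ hij => by simp [S.form_tp, ho i j hij])
        (fun h0 => absurd hj h0), S.form_tp]
    simpa using mul_ne_zero hxj (hn j))
  simpa using this

/-- A non-scalar coefficient makes every vector a centre. -/
theorem centre_of_not_onlyScalar (H : Over S M) [Finite F] [Nontrivial A] (hB : 3 ≤ finrank F B)
    (hq : 4 ≤ finrank F B ∨ ∃ k : F, k ≠ 0 ∧ k ^ 2 ≠ 1) (hns : ¬ OnlyScalar S M) (X : V) :
    Centre S M X := by
  obtain ⟨s, hs0, hs, hc⟩ := H.exists_singular_coeff hB hq hns
  exact H.centre_all (H.pureCentre_all hs0 hs (H.pureCentre_of_coeff hc)) X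

end Over

end CfsgLib.FormTensor91
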