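import Cfsg.Agent.FormTensor91.Vectors

/-!
Root coefficients: a coefficient which is not scalar yields a singular rank-one coefficient.
-/

set_option autoImplicit false
set_option linter.unusedSectionVars false

namespace CfsgLib.FormTensor91

open Module CfsgLib.FieldExtMax

variable {F A B V : Type*} [Field F] [AddCommGroup A] [Module F A] [AddCommGroup B]
  [Module F B] [AddCommGroup V] [Module F V] [FiniteDimensional F A] [FiniteDimensional F B]
  {S : Setting F A B V} {M : Subgroup (V ≃ₗ[F] V)}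

/-- The standing hypotheses on the group. -/
structure Over (S : Setting F A B V) (M : Subgroup (V ≃ₗ[F] V)) : Prop where
  iso : ∀ g ∈ M, ∀ X Y, S.form (g X) (g Y) = S.form X Y
  ten : ∀ g, S.IsT g → (∀ X Y, S.form (g X) (g Y) = S.form X Y) → g ∈ M

namespace Over

lemma tequiv_mem (H : Over S M) (x : A ≃ₗ[F] A) (y : B ≃ₗ[F] B)
    (h : ∀ a a' w w', S.om (x a) (x a') * S.be (y w) (y w') = S.om a a' * S.be w w') :
    S.tequiv x y ∈ M :=
  H.ten _ (S.isT_tequiv x y) (S.preserves_of_tp fun a w a' w' => by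
    rw [S.tequiv_tp, S.tequiv_tp, S.form_tp, h])

lemma left_mem (H : Over S M) (x : A ≃ₗ[F] A) (h : ∀ a a', S.om (x a) (x a') = S.om a a') :
    S.tequiv x (LinearEquiv.refl F B) ∈ M := H.tequiv_mem _ _ fun a a' w w' => by simp [h]

lemma right_mem (H : Over S M) (y : B ≃ₗ[F] B) (h : ∀ w w', S.be (y w) (y w') = S.be w w') :
    S.tequiv (LinearEquiv.refl F A) y ∈ M := H.tequiv_mem _ _ fun a a' w w' => by simp [h]

lemma pi_equivariant (x : A ≃ₗ[F] A) (y : B ≃ₗ[F] B) (a : A) (X : V)
    (h : ∀ c, S.om (x c) (x a) = S.om c a) :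
    S.pi (x a) (S.tequiv x y X) = y (S.pi a X) := by
  have := S.hom_ext (f := S.pi (x a) ∘ₗ (S.tequiv x y : V →ₗ[F] V))
    (g := (y : B →ₗ[F] B) ∘ₗ S.pi a) fun c w => by simp [h]
  exact LinearMap.congr_fun this X

lemma inM_root_conj (H : Over S M) {a : A} {τ : B →ₗ[F] B} (h : InM M (S.root a τ))
    (x : A ≃ₗ[F] A) (y : B ≃ₗ[F] B) (hx : ∀ c d, S.om (x c) (x d) = S.om c d)
    (hy : ∀ w w', S.be (y w) (y w') = S.be w w') :
    InM M (S.root (x a) ((y : B →ₗ[F] B) ∘ₗ τ ∘ₗ (y.symm : B →ₗ[F] B))) := by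
  refine (h.conj (H.tequiv_mem x y fun c d w w' => by rw [hx, hy])).congr fun X => ?_
  obtain ⟨X, rfl⟩ := (S.tequiv x y).surjective X
  simp only [Setting.root_apply, LinearMap.comp_apply, LinearEquiv.coe_coe,
    pi_equivariant x y a X fun c => hx c a, y.symm_apply_apply]
  change _ = S.tequiv x y (S.tp a (τ (S.pi a ((S.tequiv x y).symm (S.tequiv x y X)))))
  rw [LinearEquiv.symm_apply_apply, S.tequiv_tp]

end Over

/-- A root coefficient. -/
def Coeff (S : Setting F A B V) (M : Subgroup (V ≃ₗ[F] V)) (τ : B →ₗ[F] B) : Prop :=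
  ∀ a : A, InM M (S.root a τ)

/-- Only scalar coefficients. -/
def OnlyScalar (S : Setting F A B V) (M : Subgroup (V ≃ₗ[F] V)) : Prop :=
  ∀ τ, Coeff S M τ → ∃ c : F, ∀ w, τ w = c • w

lemma root_root (a : A) (τ τ' : B →ₗ[F] B) (X : V) : S.root a τ (S.root a τ' X) = 0 := by
  simp [S.om_alt]

namespace Over

lemma coeff_of_inM (H : Over S M) {a : A} (ha : a ≠ 0) {τ : B →ₗ[F] B} (h : InM M (S.root a τ)) :
    Coeff S M τ := by
  intro b
  rcases eq_or_ne b 0 with rfl | hb
  · exact InM.zero.congr fun X => by simp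
  obtain ⟨e, he, hea⟩ := S.exists_map_vec ha hb
  refine (hea ▸ H.inM_root_conj h e (LinearEquiv.refl F B) he (fun _ _ => rfl)).congr fun X => ?_
  simp

lemma sa_of_inM (H : Over S M) {a : A} (ha : a ≠ 0) {τ : B →ₗ[F] B} (h : InM M (S.root a τ)) :
    S.SA τ := by
  obtain ⟨e, he, hey⟩ := h
  obtain ⟨a', ha'⟩ := S.exists_om_one ha
  intro u v
  have h1 := H.iso e he (S.tp a' u) (S.tp a' v)
  simp only [hey, Setting.root_apply, Setting.pi_tp, S.om_skew a a', ha', map_add, map_smul,
    LinearMap.add_apply, LinearMap.smul_apply, S.form_tp, S.om_alt, smul_eq_mul] at h1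
  linear_combination -h1

lemma coeff_add (_H : Over S M) {τ τ' : B →ₗ[F] B} (h : Coeff S M τ) (h' : Coeff S M τ') :
    Coeff S M (τ + τ') := fun a =>
  ((h a).add (h' a) (root_root a τ τ')).congr fun X => by simp

lemma coeff_neg (_H : Over S M) {τ : B →ₗ[F] B} (h : Coeff S M τ) : Coeff S M (-τ) := fun a =>
  ((h a).neg (root_root a τ τ)).congr fun X => by simp

lemma coeff_smul (H : Over S M) {τ : B →ₗ[F] B} (h : Coeff S M τ) (c : F) :
    Coeff S M (c • τ) := by
  have hsq : ∀ k : F, Coeff S M ((k * k) • τ) := fun k a =>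
    (h (k • a)).congr fun X => by simp [smul_smul]
  have h2 := S.two
  convert H.coeff_add (hsq ((c + 1) / 2)) (H.coeff_neg (hsq ((c - 1) / 2))) using 1
  rw [← neg_smul, ← add_smul]
  congr 1
  field_simp
  ring

lemma coeff_id (H : Over S M) : Coeff S M LinearMap.id := by
  intro a
  refine ⟨_, H.left_mem (S.omT 1 a) (S.om_omT 1 a), fun X => ?_⟩
  have := S.hom_ext (f := (S.tequiv (S.omT 1 a) (LinearEquiv.refl F B) : V →ₗ[F] V))
    (g := LinearMap.id + S.root a LinearMap.id) fun c w => by simp [map_smul]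
  exact LinearMap.congr_fun this X

lemma coeff_conj (H : Over S M) {τ : B →ₗ[F] B} (h : Coeff S M τ) (y : B ≃ₗ[F] B)
    (hy : ∀ w w', S.be (y w) (y w') = S.be w w') :
    Coeff S M ((y : B →ₗ[F] B) ∘ₗ τ ∘ₗ (y.symm : B →ₗ[F] B)) := fun a => by
  simpa using H.inM_root_conj (h a) (LinearEquiv.refl F A) y (fun _ _ => rfl) hy

lemma coeff_sa (H : Over S M) [Nontrivial A] {τ : B →ₗ[F] B} (h : Coeff S M τ) : S.SA τ := by
  obtain ⟨a, ha⟩ := exists_ne (0 : A)
  exact H.sa_of_inM ha (h a)

lemma coeff_sym2_eigen (H : Over S M) [Nontrivial A] {τ : B →ₗ[F] B} (h : Coeff S M τ) {v : B}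
    (hv : S.be v v ≠ 0) :
    Coeff S M (S.sym2 v (τ v - (S.be (τ v) v / S.be v v) • v)) := by
  have h1 := H.coeff_add h (H.coeff_neg (H.coeff_conj h (S.reflEquiv hv) (S.be_refl hv)))
  have h2 : τ + -((S.reflEquiv hv : B →ₗ[F] B) ∘ₗ τ ∘ₗ ((S.reflEquiv hv).symm : B →ₗ[F] B)) =
      τ - (S.refl v) ∘ₗ τ ∘ₗ (S.refl v) := by
    rw [sub_eq_add_neg]
    congr 2
  rw [h2, S.sub_conj_refl (H.coeff_sa h) hv] at h1
  have h3 := H.coeff_smul h1 (S.be v v / 2)
  rwa [smul_smul, div_mul_div_cancel₀' hv, div_self S.two, one_smul] at h3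

/-- Enlarge a pair along the orthogonal of one member. -/
lemma coeff_sym2_extend (H : Over S M) [Nontrivial A]
    (hq : 4 ≤ finrank F B ∨ ∃ k : F, k ≠ 0 ∧ k ^ 2 ≠ 1) {v w : B} (hvw : S.be v w = 0)
    (hv : S.be v v ≠ 0) (hw : S.be w w ≠ 0) (h : Coeff S M (S.sym2 v w)) {z : B}
    (hz : S.be z w = 0) : Coeff S M (S.sym2 z w) := by
  have hwv : S.be w v = 0 := by rw [S.be_symm]; exact hvw
  -- vectors orthogonal to both
  have good : ∀ z, S.be z v = 0 → S.be z w = 0 → S.be v v + S.be z z ≠ 0 →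
      Coeff S M (S.sym2 z w) := by
    intro z hzv hzw hne
    have hvz : S.be v z = 0 := by rw [S.be_symm]; exact hzv
    have hwz : S.be w z = 0 := by rw [S.be_symm]; exact hzw
    have hu : S.be (v + z) (v + z) ≠ 0 := by simpa [hvz, hzv] using hne
    have h1 := H.coeff_sym2_eigen h hu
    have h2 : S.sym2 v w (v + z) = S.be v v • w := by simp [hzv, hvw, hzw]
    rw [h2, map_smul, LinearMap.smul_apply, map_add, hwv, hwz, add_zero, smul_zero, zero_div,
      zero_smul, sub_zero] at h1
    have h3 := H.coeff_add (H.coeff_smul h1 (S.be v v)⁻¹) (H.coeff_neg h)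
    refine fun a => (h3 a).congr fun X => ?_
    simp only [Setting.root_apply]
    congr 1
    simp only [Setting.sym2_apply, LinearMap.add_apply, LinearMap.smul_apply, LinearMap.neg_apply,
      map_add, map_smul, smul_eq_mul]
    match_scalars <;> field_simp <;> ring
  have perp : ∀ z, S.be z v = 0 → S.be z w = 0 → Coeff S M (S.sym2 z w) := by
    intro z hzv hzw
    by_cases hne : S.be v v + S.be z z = 0
    · have hzn : S.be z z ≠ 0 := fun h0 => hv (by rw [h0, add_zero] at hne; exact hne)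
      by_cases hk : ∃ k : F, k ≠ 0 ∧ k ^ 2 ≠ 1
      · obtain ⟨k, hk0, hk1⟩ := hk
        have h1 := good (k • z) (by simp [hzv]) (by simp [hzw]) fun h0 => hk1 (by
          simp only [map_smul, LinearMap.smul_apply, smul_eq_mul] at h0
          exact mul_right_cancel₀ hzn (by linear_combination h0 - hne))
        refine fun a => (H.coeff_smul h1 k⁻¹ a).congr fun X => ?_
        simp only [Setting.root_apply]
        congr 1
        simp only [Setting.sym2_apply, LinearMap.smul_apply, map_smul, smul_eq_mul]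
        match_scalars <;> field_simp
      · have h4 := hq.resolve_right hk
        obtain ⟨y, hy, hyo⟩ := S.exists_nonsing_orth ![v, w, z]
          (fun i => by fin_cases i <;> simp [hv, hw, hzn])
          (fun i j hij => by
            fin_cases i <;> fin_cases j <;>
              simp_all [S.be_symm v z, S.be_symm w z])
          (by omega)
        have hyv : S.be y v = 0 := hyo 0
        have hyw : S.be y w = 0 := hyo 1
        have hyz : S.be y z = 0 := hyo 2
        have hzy : S.be z y = 0 := by rw [S.be_symm]; exact hyz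
        have g1 := good (z + y) (by simp [hzv, hyv]) (by simp [hzw, hyw]) (by
          simp only [map_add, LinearMap.add_apply, hyz, hzy]
          intro h0
          exact hy (by linear_combination h0 - hne))
        have g2 := good (z - y) (by simp [hzv, hyv]) (by simp [hzw, hyw]) (by
          simp only [map_sub, LinearMap.sub_apply, hyz, hzy]
          intro h0
          exact hy (by linear_combination h0 - hne))
        have h2 := S.two
        refine fun a => (H.coeff_smul (H.coeff_add g1 g2) (1 / 2) a).congr fun X => ?_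
        simp only [Setting.root_apply]
        congr 1
        simp only [Setting.sym2_apply, LinearMap.add_apply, LinearMap.smul_apply, map_add, map_sub,
          smul_eq_mul]
        match_scalars <;> field_simp <;> ring
    · exact good z hzv hzw hne
  have h1 := H.coeff_add (H.coeff_smul h (S.be z v / S.be v v))
    (perp (z - (S.be z v / S.be v v) • v) (by simp [hv]) (by simp [hz, hvw]))
  refine fun a => (h1 a).congr fun X => ?_
  simp only [Setting.root_apply]
  congr 1
  simp only [Setting.sym2_apply, LinearMap.add_apply, LinearMap.smul_apply, map_sub, map_smul,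
    smul_eq_mul]
  match_scalars <;> field_simp <;> ring

/-- A non-scalar coefficient gives a singular rank-one coefficient. -/
theorem exists_singular_coeff (H : Over S M) [Finite F] [Nontrivial A] (hB : 3 ≤ finrank F B)
    (hq : 4 ≤ finrank F B ∨ ∃ k : F, k ≠ 0 ∧ k ^ 2 ≠ 1) (hns : ¬ OnlyScalar S M) :
    ∃ s, s ≠ 0 ∧ S.be s s = 0 ∧ Coeff S M (S.sym2 s s) := by
  simp only [OnlyScalar, not_forall, not_exists] at hns
  obtain ⟨τ, hτ, hns⟩ := hns
  obtain ⟨v, hv, hne⟩ : ∃ v, S.be v v ≠ 0 ∧ ∀ c : F, τ v ≠ c • v := by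
    by_contra! h0
    obtain ⟨c, hc⟩ := S.eigen_scalar (P := ⊤) (fun u _ hu => by
      obtain ⟨x, hx⟩ : ∃ x, S.be u x ≠ 0 := by
        by_contra! h1; exact hu (S.be_nd u h1)
      exact ⟨x, Submodule.mem_top, hx⟩) (by rwa [finrank_top]) τ fun u _ hu => h0 u hu
    obtain ⟨w, hw⟩ := hns c
    exact hw (hc w Submodule.mem_top)
  have h1 := H.coeff_sym2_eigen hτ hv
  set w := τ v - (S.be (τ v) v / S.be v v) • v with hw
  have hw0 : w ≠ 0 := fun h0 => hne _ (sub_eq_zero.1 h0)
  have hwv : S.be w v = 0 := by simp [hw, hv]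
  clear_value w
  clear hw
  have symm2 : ∀ p q, Coeff S M (S.sym2 p q) → Coeff S M (S.sym2 q p) := fun p q h a =>
    (h a).congr fun X => by simp [add_comm]
  -- a singular vector orthogonal to a non-singular partner
  obtain ⟨x, s, hx, hxs, hs0, hs, hsx⟩ : ∃ x s, S.be x x ≠ 0 ∧ S.be x s = 0 ∧ s ≠ 0 ∧
      S.be s s = 0 ∧ Coeff S M (S.sym2 x s) := by
    by_cases hww : S.be w w = 0
    · exact ⟨v, w, hv, by rw [S.be_symm]; exact hwv, hw0, hww, h1⟩
    have hall : ∀ z, S.be z v = 0 → Coeff S M (S.sym2 z v) := fun z hz =>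
      H.coeff_sym2_extend hq hwv hww hv (symm2 _ _ h1) hz
    obtain ⟨b, hb, hbo⟩ := S.exists_nonsing_orth ![v, w] (fun i => by fin_cases i <;> simp [hv, hww])
      (fun i j hij => by fin_cases i <;> fin_cases j <;> simp_all [S.be_symm v w]) (by omega)
    obtain ⟨p, q, hpq⟩ := S.exists_norm_eq hww hb (by rw [S.be_symm]; exact hbo 1) (-S.be v v)
      (neg_ne_zero.2 hv)
    set y := p • w + q • b
    have hbv : S.be b v = 0 := hbo 0
    have hyv : S.be y v = 0 := by simp [y, hwv, hbv]
    have hvy : S.be v y = 0 := by rw [S.be_symm]; exact hyv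
    obtain ⟨x, hx, hxo⟩ := S.exists_nonsing_orth ![v, y]
      (fun i => by fin_cases i <;> simp [hv, hpq])
      (fun i j hij => by fin_cases i <;> fin_cases j <;> simp_all) (by omega)
    have hxv : S.be x v = 0 := hxo 0
    have hxy : S.be x y = 0 := hxo 1
    refine ⟨x, v + y, hx, by simp [hxv, hxy], fun h0 => ?_, ?_, symm2 _ _
      (H.coeff_sym2_extend hq (by rw [S.be_symm]; exact hxv) hv hx (symm2 _ _ (hall x hxv)) ?_)⟩
    · have := congrArg (fun u => S.be u v) h0
      simp [hyv, hv] at this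
    · simp [hvy, hyv, hpq]
    · simp [S.be_symm v x, hxv, S.be_symm y x, hxy]
  obtain ⟨e, he, hez, -⟩ := S.exists_eichler hs hxs
  have hsx' : S.be s x = 0 := by rw [S.be_symm]; exact hxs
  have h2 := H.coeff_conj hsx e he
  have h3 := H.coeff_smul (H.coeff_add h2 (H.coeff_neg hsx)) (-(S.be x x))⁻¹
  refine ⟨s, hs0, hs, fun a => (h3 a).congr fun X => ?_⟩
  simp only [Setting.root_apply]
  congr 1
  have hes : e s = s := by rw [hez]; simp [hs, hsx']
  have hex : e x = x - S.be x x • s := by rw [hez]; simp [hxs]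
  have hb1 : ∀ u z, S.be (e.symm z) u = S.be z (e u) := fun u z => by
    rw [← he, e.apply_symm_apply]
  simp only [Setting.sym2_apply, LinearMap.add_apply, LinearMap.smul_apply, LinearMap.neg_apply,
    LinearMap.comp_apply, LinearEquiv.coe_coe, map_add, map_smul, hb1, hes, hex, map_sub,
    smul_eq_mul]
  match_scalars <;> field_simp <;> ring

end Over

end CfsgLib.FormTensor91
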