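import Mathlib

/-!
A finite group acting on the plane, containing both kinds of elementary matrices and stable under
the diagonal reflection, has even order.
-/

set_option autoImplicit false
set_option linter.unusedSectionVars false

namespace CfsgLib.FormTensor91

open Matrix
open scoped MatrixGroups

variable {k : Type*} [Field k]

/-- A matrix commuting with a lower elementary matrix is lower triangular with equal diagonal. -/
lemma lower_of_commute {z : Matrix (Fin 2) (Fin 2) k} {s : k} (hs : s ≠ 0)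
    (h : z * !![1, 0; s, 1] = !![1, 0; s, 1] * z) : z 0 1 = 0 ∧ z 1 1 = z 0 0 := by
  have h00 := congr_fun (congr_fun h 0) 0
  have h10 := congr_fun (congr_fun h 1) 0
  simp [Matrix.mul_apply, Fin.sum_univ_two] at h00 h10
  refine ⟨h00.resolve_right hs, mul_right_cancel₀ hs ?_⟩
  linear_combination h10

lemma pow_lower_diag {z : Matrix (Fin 2) (Fin 2) k} (h : z 0 1 = 0) (n : ℕ) :
    (z ^ n) 0 1 = 0 ∧ (z ^ n) 0 0 = z 0 0 ^ n := by
  induction n with
  | zero => simp
  | succ n ih =>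
    rw [pow_succ, Matrix.mul_apply, Matrix.mul_apply, Fin.sum_univ_two, Fin.sum_univ_two, ih.1, ih.2]
    simp [h, pow_succ]

lemma pow_upper_diag {z : Matrix (Fin 2) (Fin 2) k} (h : z 1 0 = 0) (n : ℕ) :
    (z ^ n) 1 0 = 0 ∧ (z ^ n) 0 0 = z 0 0 ^ n := by
  induction n with
  | zero => simp
  | succ n ih =>
    rw [pow_succ', Matrix.mul_apply, Matrix.mul_apply, Fin.sum_univ_two, Fin.sum_univ_two, ih.1, ih.2]
    simp [h, pow_succ']

variable {G : Type*} [Group G] [Finite G]

private lemma two_dvd_card_of_injective (ρ : G →* Matrix (Fin 2) (Fin 2) k)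
    (hρ : Function.Injective ρ) {u l : G} {t s : k} (ht : t ≠ 0) (hs : s ≠ 0)
    (hu : ρ u = !![1, t; 0, 1]) (hl : ρ l = !![1, 0; s, 1])
    (hσ : ∀ g, ∃ g', ρ g' = !![1, 0; 0, -1] * ρ g * !![1, 0; 0, -1]) :
    2 ∣ Nat.card G := by
  by_contra hodd
  have hupow : ∀ n : ℕ, ρ (u ^ n) = !![1, n * t; 0, 1] := by
    intro n
    induction n with
    | zero => simp [Matrix.one_fin_two]
    | succ n ih =>
      rw [pow_succ, map_mul, ih, hu]
      ext i j
      fin_cases i <;> fin_cases j <;> simp [Matrix.mul_apply, Fin.sum_univ_two] <;> ring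
  have hlpow : ∀ n : ℕ, ρ (l ^ n) = !![1, 0; n * s, 1] := by
    intro n
    induction n with
    | zero => simp [Matrix.one_fin_two]
    | succ n ih =>
      rw [pow_succ, map_mul, ih, hl]
      ext i j
      fin_cases i <;> fin_cases j <;> simp [Matrix.mul_apply, Fin.sum_univ_two] <;> ring
  obtain ⟨p, hp⟩ := CharP.exists k
  have hp0 : p ≠ 0 := by
    intro h0
    subst h0
    have := CharP.charP_to_charZero k
    have h1 := hupow (orderOf u)
    rw [pow_orderOf_eq_one, map_one] at h1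
    have h2 := congr_fun (congr_fun h1 0) 1
    simp [ht, (orderOf_pos u).ne'] at h2
  have hprime : p.Prime := (CharP.char_is_prime_or_zero k p).resolve_right hp0
  have := Fact.mk hprime
  have hpg : ∀ x : G, x ^ p = 1 → IsPGroup p (Subgroup.zpowers x) := by
    rintro x hx ⟨y, i, rfl⟩
    refine ⟨1, Subtype.ext ?_⟩
    change (x ^ i) ^ (p ^ 1) = 1
    rw [pow_one, ← zpow_natCast, ← _root_.zpow_mul, mul_comm, _root_.zpow_mul, zpow_natCast, hx,
      _root_.one_zpow]
  obtain ⟨P, hP⟩ := (hpg u (hρ (by rw [hupow]; simp [Matrix.one_fin_two]))).exists_le_sylow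
  obtain ⟨Q, hQ⟩ := (hpg l (hρ (by rw [hlpow]; simp [Matrix.one_fin_two]))).exists_le_sylow
  have hlQ : l ∈ (Q : Subgroup G) := hQ (Subgroup.mem_zpowers l)
  -- commuting with a lower elementary matrix
  have hlow : ∀ x ∈ (Q : Subgroup G), ∀ r : k, r ≠ 0 →
      ρ x * !![1, 0; r, 1] = !![1, 0; r, 1] * ρ x → ρ x = !![1, 0; ρ x 1 0, 1] := by
    intro x hx r hr hcomm
    obtain ⟨h01, h11⟩ := lower_of_commute hr hcomm
    obtain ⟨n, hn⟩ := Q.2 ⟨x, hx⟩
    have hxn : x ^ p ^ n = 1 := congrArg Subtype.val hn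
    have h1 := (pow_lower_diag h01 (p ^ n)).2
    rw [← map_pow, hxn, map_one, Matrix.one_apply_eq] at h1
    have h00 : ρ x 0 0 = 1 := by
      refine sub_eq_zero.1 (pow_eq_zero_iff (pow_ne_zero n hprime.ne_zero) |>.1 ?_)
      rw [sub_pow_char_pow, ← h1, one_pow, sub_self]
    ext i j
    fin_cases i <;> fin_cases j <;> simp [h01, h11, h00]
  have : Nontrivial (Q : Subgroup G) := ⟨⟨⟨l, hlQ⟩, 1, fun h => hs (by
    have h1 := congr_fun (congr_fun (congrArg ρ (congrArg Subtype.val h)) 1) 0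
    simpa [hl] using h1)⟩⟩
  have := IsPGroup.center_nontrivial (G := (Q : Subgroup G)) Q.2
  obtain ⟨⟨⟨z, hz⟩, hzc⟩, hz1⟩ := exists_ne (1 : Subgroup.center (Q : Subgroup G))
  have hzcomm : ∀ x ∈ (Q : Subgroup G), x * z = z * x := fun x hx =>
    congrArg Subtype.val (Subgroup.mem_center_iff.1 hzc ⟨x, hx⟩)
  have hzl := hlow z hz s hs (by rw [← hl, ← map_mul, ← map_mul, hzcomm l hlQ])
  have hzr : ρ z 1 0 ≠ 0 := fun h0 => hz1 (by
    refine Subtype.ext (Subtype.ext (hρ ?_))
    rw [hzl, h0]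
    simp [Matrix.one_fin_two])
  have hQlow : ∀ x ∈ (Q : Subgroup G), ρ x = !![1, 0; ρ x 1 0, 1] := fun x hx =>
    hlow x hx _ hzr (by rw [← hzl, ← map_mul, ← map_mul, hzcomm x hx])
  -- a conjugate of `u` is lower
  obtain ⟨g, hg⟩ := MulAction.exists_smul_eq G P Q
  have hgu : g * u * g⁻¹ ∈ (Q : Subgroup G) := by
    rw [← hg, Sylow.coe_subgroup_smul]
    exact Subgroup.smul_mem_pointwise_smul u (MulAut.conj g) _ (hP (Subgroup.mem_zpowers u))
  have hgu' := hQlow _ hgu
  set r := ρ (g * u * g⁻¹) 1 0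
  have h1 : ρ g * !![1, t; 0, 1] = !![1, 0; r, 1] * ρ g := by
    rw [← hgu', ← hu, ← map_mul, ← map_mul, inv_mul_cancel_right]
  have hg00 : ρ g 0 0 = 0 := by
    have h2 := congr_fun (congr_fun h1 0) 1
    simp [Matrix.mul_apply, Fin.sum_univ_two] at h2
    exact h2.resolve_right ht
  obtain ⟨g', hg'⟩ := hσ g
  have hinv : ρ g * ρ g⁻¹ = 1 := by rw [← map_mul, mul_inv_cancel, map_one]
  have hb : ρ g 0 1 ≠ 0 := fun h0 => by
    have h2 := congr_fun (congr_fun hinv 0) 0
    simp [Matrix.mul_apply, Fin.sum_univ_two, hg00, h0] at h2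
  have hc : ρ g 1 0 ≠ 0 := fun h0 => by
    have h2 := congr_fun (congr_fun (show ρ g⁻¹ * ρ g = 1 by
      rw [← map_mul, inv_mul_cancel, map_one]) 0) 0
    simp [Matrix.mul_apply, Fin.sum_univ_two, hg00, h0] at h2
  have h3 : ρ g * ρ (g⁻¹ * g') = !![0, -ρ g 0 1; -ρ g 1 0, ρ g 1 1] := by
    rw [← map_mul, mul_inv_cancel_left, hg', Matrix.eta_fin_two (ρ g)]
    simp [hg00]
  have hodd' : Odd (orderOf (g⁻¹ * g')) := by
    rw [← Nat.not_even_iff_odd, even_iff_two_dvd]
    exact fun h => hodd (h.trans (orderOf_dvd_natCard _))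
  generalize g⁻¹ * g' = n at h3 hodd'
  have hn10 : ρ n 1 0 = 0 := by
    have h2 := congr_fun (congr_fun h3 0) 0
    simpa [Matrix.mul_apply, Fin.sum_univ_two, hg00, hb] using h2
  have hn00 : ρ n 0 0 = -1 := by
    have h2 := congr_fun (congr_fun h3 1) 0
    simp [Matrix.mul_apply, Fin.sum_univ_two, hn10] at h2
    exact mul_left_cancel₀ hc (by linear_combination h2)
  have h4 := (pow_upper_diag hn10 (orderOf n)).2
  rw [← map_pow, pow_orderOf_eq_one, map_one, Matrix.one_apply_eq, hn00] at h4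
  rw [hodd'.neg_one_pow] at h4
  -- characteristic two would make `u` an involution
  have hp2 : p = 2 := (ringChar.eq k p).symm.trans (neg_one_eq_one_iff.1 h4.symm)
  refine hodd (dvd_trans ?_ (orderOf_dvd_natCard u))
  rw [orderOf_eq_prime (p := 2) (hρ (by
      have h2 : ((2 : ℕ) : k) = 0 := hp2 ▸ CharP.cast_eq_zero k p
      rw [hupow, h2]
      simp [Matrix.one_fin_two])) fun h => ht (by
    have h2 := congr_fun (congr_fun (hu.symm.trans (by rw [h, map_one])) 0) 1
    simpa using h2)]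

/-- Even order from both kinds of elementary matrices and the diagonal reflection. -/
theorem two_dvd_card_of_elementary (ρ : G →* Matrix (Fin 2) (Fin 2) k)
    {u l : G} {t s : k} (ht : t ≠ 0) (hs : s ≠ 0)
    (hu : ρ u = !![1, t; 0, 1]) (hl : ρ l = !![1, 0; s, 1])
    (hσ : ∀ g, ∃ g', ρ g' = !![1, 0; 0, -1] * ρ g * !![1, 0; 0, -1]) :
    2 ∣ Nat.card G := by
  set ν := ρ.toHomUnits
  set φ : ν.range →* Matrix (Fin 2) (Fin 2) k := (Units.coeHom _).comp ν.range.subtype
  have hmk : ∀ g : G, φ ⟨ν g, g, rfl⟩ = ρ g := fun g => MonoidHom.coe_toHomUnits ρ g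
  have : Finite ν.range := Finite.of_surjective _ ν.rangeRestrict_surjective
  refine (two_dvd_card_of_injective φ (Units.val_injective.comp Subtype.val_injective) ht hs
    ((hmk u).trans hu) ((hmk l).trans hl) ?_).trans (Subgroup.card_range_dvd ν)
  rintro ⟨_, g, rfl⟩
  obtain ⟨g', hg'⟩ := hσ g
  exact ⟨⟨ν g', g', rfl⟩, by rw [hmk, hmk, hg']⟩

/-- The subgroup generated by lifts of two elementary matrices contains an involution. -/
theorem exists_involution {R : Type*} [CommRing R] [Nontrivial R] (τ : G →* SL(2, R)) {u l : G}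
    {s : R} (hs : IsUnit s) (hu : (τ u : Matrix (Fin 2) (Fin 2) R) = !![1, 1; 0, 1])
    (hl : (τ l : Matrix (Fin 2) (Fin 2) R) = !![1, 0; s, 1]) :
    ∃ x ∈ Subgroup.closure ({u, l} : Set G), x ≠ 1 ∧ x * x = 1 := by
  obtain ⟨I, hI⟩ := Ideal.exists_maximal R
  let : Field (R ⧸ I) := Ideal.Quotient.field I
  set π := Ideal.Quotient.mk I
  let ρ₀ : SL(2, R) →* Matrix (Fin 2) (Fin 2) (R ⧸ I) :=
    { toFun := fun m => (m : Matrix (Fin 2) (Fin 2) R).map π
      map_one' := by simp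
      map_mul' := fun m m' => by simp [Matrix.map_mul] }
  let ρ : G →* Matrix (Fin 2) (Fin 2) (R ⧸ I) := ρ₀.comp τ
  set D : Matrix (Fin 2) (Fin 2) (R ⧸ I) := !![1, 0; 0, -1] with hD
  set Γ := Subgroup.closure ({u, l} : Set G)
  have hρu : ρ u = !![1, 1; 0, 1] := by
    change (τ u : Matrix (Fin 2) (Fin 2) R).map π = _
    rw [hu]
    ext i j; fin_cases i <;> fin_cases j <;> simp
  have hρl : ρ l = !![1, 0; π s, 1] := by
    change (τ l : Matrix (Fin 2) (Fin 2) R).map π = _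
    rw [hl]
    ext i j; fin_cases i <;> fin_cases j <;> simp
  have hDD : D * D = 1 := by simp [hD, Matrix.one_fin_two]
  have hσ : ∀ g ∈ Γ, ∃ g' ∈ Γ, ρ g' = D * ρ g * D := by
    intro g hg
    induction hg using Subgroup.closure_induction with
    | mem x hx =>
      refine ⟨x⁻¹, Γ.inv_mem (Subgroup.subset_closure hx),
        left_inv_eq_right_inv (a := ρ x) (by rw [← map_mul, inv_mul_cancel, map_one]) ?_⟩
      rcases hx with rfl | rfl <;> simp [hρu, hρl, hD, Matrix.one_fin_two]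
    | one => exact ⟨1, Γ.one_mem, by rw [map_one, mul_one, hDD]⟩
    | mul x y _ _ h1 h2 =>
      obtain ⟨x', hx', ex⟩ := h1
      obtain ⟨y', hy', ey⟩ := h2
      refine ⟨x' * y', Γ.mul_mem hx' hy', ?_⟩
      rw [map_mul, map_mul, ex, ey, show D * ρ x * D * (D * ρ y * D) =
        D * ρ x * (D * D) * (ρ y * D) by simp only [mul_assoc], hDD, mul_one]
      simp only [mul_assoc]
    | inv x _ h1 =>
      obtain ⟨x', hx', ex⟩ := h1
      refine ⟨x'⁻¹, Γ.inv_mem hx',
        left_inv_eq_right_inv (a := ρ x') (by rw [← map_mul, inv_mul_cancel, map_one]) ?_⟩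
      rw [ex, show D * ρ x * D * (D * ρ x⁻¹ * D) = D * ρ x * (D * D) * (ρ x⁻¹ * D) by
        simp only [mul_assoc], hDD, mul_one, mul_assoc D, ← mul_assoc (ρ x), ← map_mul,
        mul_inv_cancel, map_one, one_mul, hDD]
  have hs0 : π s ≠ 0 := (hs.map π).ne_zero
  have h2 : 2 ∣ Nat.card Γ := two_dvd_card_of_elementary (ρ.comp Γ.subtype)
    (u := ⟨u, Subgroup.subset_closure (by simp)⟩) (l := ⟨l, Subgroup.subset_closure (by simp)⟩)
    one_ne_zero hs0 hρu hρl fun γ => by
      obtain ⟨g', hg', e⟩ := hσ γ γ.2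
      exact ⟨⟨g', hg'⟩, e⟩
  have : Fact (Nat.Prime 2) := ⟨Nat.prime_two⟩
  obtain ⟨⟨x, hx⟩, hord⟩ := exists_prime_orderOf_dvd_card' 2 h2
  rw [Subgroup.orderOf_mk] at hord
  refine ⟨x, hx, fun h => ?_, ?_⟩
  · rw [h, orderOf_one] at hord
    omega
  · rw [← pow_two, ← hord, pow_orderOf_eq_one]

/-- An involution of `SL₂` is scalar. -/
lemma scalar_of_sq_one {R : Type*} [CommRing R] {h : R} (hh : 2 * h = 1) {m : SL(2, R)}
    (hm : m * m = 1) : m 0 1 = 0 ∧ m 1 0 = 0 ∧ m 1 1 = m 0 0 := by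
  have hdet : m 0 0 * m 1 1 - m 0 1 * m 1 0 = 1 := by
    rw [← Matrix.det_fin_two]; exact m.2
  have hent : ∀ i k, m i 0 * m 0 k + m i 1 * m 1 k = (1 : Matrix (Fin 2) (Fin 2) R) i k :=
    fun i k => by
      have := congrFun (congrFun (congrArg Subtype.val hm) i) k
      simpa [Matrix.mul_apply, Fin.sum_univ_two] using this
  have h00 := hent 0 0
  have h01 := hent 0 1
  have h10 := hent 1 0
  have h11 := hent 1 1
  simp only [Matrix.one_apply_eq, ne_eq, zero_ne_one, one_ne_zero, not_false_eq_true,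
    Matrix.one_apply_ne] at h00 h01 h10 h11
  have e00 : m 0 0 * (m 0 0 + m 1 1) = 2 := by linear_combination h00 + hdet
  exact ⟨by linear_combination (m 0 0 * h) * h01 - (m 0 1 * h) * e00 - m 0 1 * hh,
    by linear_combination (m 0 0 * h) * h10 - (m 1 0 * h) * e00 - m 1 0 * hh,
    by linear_combination (m 0 0 * h) * (h11 - h00) - ((m 1 1 - m 0 0) * h) * e00 -
      (m 1 1 - m 0 0) * hh⟩

end CfsgLib.FormTensor91
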