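import Cfsg.Agent.FormTensor91.Small

/-!
A group of isometries containing the tensor isometries consists of tensor maps, or contains all
transvections.
-/

set_option autoImplicit false
set_option linter.unusedSectionVars false

namespace CfsgLib.FormTensor91

open Module CfsgLib.FieldExtMax

variable {F A B V : Type*} [Field F] [AddCommGroup A] [Module F A] [AddCommGroup B]
  [Module F B] [AddCommGroup V] [Module F V] [FiniteDimensional F A] [FiniteDimensional F B]
  [FiniteDimensional F V] {S : Setting F A B V} {M : Subgroup (V ≃ₗ[F] V)}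

namespace Over

variable [Nontrivial A] [Finite F]

/-- An element moving the members off themselves meets no member. -/
lemma meet_trivial (H : Over S M) (hos : OnlyScalar S M) (hB : 3 ≤ finrank F B)
    (hdims : 4 ≤ finrank F A ∨ (finrank F A = 2 ∧ 5 ≤ finrank F B)) :
    ∀ g ∈ M, ∀ a d : A, a ≠ 0 → d ≠ 0 → 0 < finrank F ↥(S.img g a ⊓ S.mem d) → S.IsT g := by
  suffices h : ∀ j δ, finrank F B ≤ δ + j → ∀ g ∈ M, ∀ a d : A, a ≠ 0 → d ≠ 0 →
      δ < finrank F ↥(S.img g a ⊓ S.mem d) → S.IsT g from h (finrank F B) 0 (by omega)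
  intro j
  induction j with
  | zero =>
    intro δ hδ g _ a d ha hd hlt
    have := Submodule.finrank_mono (inf_le_left : S.img g a ⊓ S.mem d ≤ S.img g a)
    rw [S.finrank_img g ha] at this
    omega
  | succ j ih =>
    intro δ hδ g hg a d ha hd hlt
    have hIH := ih (δ + 1) (by omega)
    by_cases hlt' : δ + 1 < finrank F ↥(S.img g a ⊓ S.mem d)
    · exact hIH g hg a d ha hd hlt'
    by_contra hgT
    have heq : finrank F ↥(S.img g a ⊓ S.mem d) = δ + 1 := by omega
    have hd' : 4 ≤ finrank F A ∨ 5 ≤ finrank F B := hdims.imp id And.right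
    have hA : 2 ≤ finrank F A := by omega
    obtain ⟨s₁, hlo⟩ := H.step_of_meet hos hB hd' hA hIH hg hgT ha hd heq (by omega)
    obtain ⟨s₂, -⟩ := H.step_of_meet hos hB hd' hA hIH (M.inv_mem hg)
      (fun h => hgT (inv_inv g ▸ S.isT_inv h)) hd ha
      (by rw [S.finrank_img_inv_inf, heq]) (by omega)
    rcases hdims with h4 | ⟨h2, h5⟩
    · exact H.false_of_step_large hos hB h4 hg hgT ha hd s₁ s₂
    · exact H.false_of_step_small hos h2 h5 hg hgT ha hd s₁ s₂
        (by rwa [S.finrank_fib g a hd, heq])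

/-- An image in general position with respect to a member has the standard position. -/
lemma step_of_ker_bot (_H : Over S M) {g : V ≃ₗ[F] V} {a d : A} (ha : a ≠ 0) (hd : d ≠ 0)
    (h : ∀ x ∈ S.img g a, S.pi d x = 0 → x = 0) : Step S g a d := by
  have hfib : ∀ w ∈ S.fib g a d, w = 0 := fun w hw =>
    S.tp_injective hd (by rw [h _ hw (by simp [S.om_alt]), map_zero])
  refine ⟨fun x hx h0 => by rw [h x hx h0]; exact zero_mem _, fun u _ => ?_,
    fun u hu _ => hfib u hu⟩
  have h1 := finrank_map_add_inf_ker (S.img g a) (S.pi d)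
  rw [show S.img g a ⊓ LinearMap.ker (S.pi d) = ⊥ from
    (Submodule.eq_bot_iff _).2 fun x hx => h x hx.1 hx.2, finrank_bot, add_zero,
    S.finrank_img g ha] at h1
  have h2 : u ∈ (S.img g a).map (S.pi d) := by
    rw [Submodule.eq_top_of_finrank_eq h1]; trivial
  obtain ⟨x, hx, hxu⟩ := h2
  exact ⟨x, hx, hxu⟩

/-- With only scalar coefficients all elements are tensor maps. -/
theorem isT_of_onlyScalar (H : Over S M) (hos : OnlyScalar S M) (hB : 3 ≤ finrank F B)
    (hdims : 4 ≤ finrank F A ∨ (finrank F A = 2 ∧ 5 ≤ finrank F B))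
    {g : V ≃ₗ[F] V} (hg : g ∈ M) : S.IsT g := by
  have h0 := H.meet_trivial hos hB hdims
  by_contra hgT
  obtain ⟨a, ha⟩ := exists_ne (0 : A)
  have hzero : ∀ d : A, ∀ w, S.tp d w ∈ S.img g a → S.tp d w = 0 := by
    intro d w hw
    rcases eq_or_ne d 0 with rfl | hd
    · simp
    by_contra hne
    refine hgT (h0 g hg a d ha hd ?_)
    rw [Nat.pos_iff_ne_zero, Ne, Submodule.finrank_eq_zero]
    exact fun hbot => hne ((Submodule.mem_bot F).1 (hbot ▸ ⟨hw, S.tp_mem d w⟩))
  rcases hdims with h4 | ⟨h2, h5⟩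
  · by_cases hz : ∃ d, d ≠ 0 ∧ ∀ x ∈ S.img g a, S.pi d x = 0 → x = 0
    · obtain ⟨d, hd, hk⟩ := hz
      have s₁ := H.step_of_ker_bot ha hd hk
      refine H.false_of_step_large hos hB h4 hg hgT ha hd s₁ (H.step_of_ker_bot hd ha fun y hy h => ?_)
      obtain ⟨w, rfl⟩ := S.mem_img.1 hy
      have hw : w = 0 := S.be_nd _ fun v => by
        obtain ⟨x, hx, rfl⟩ := s₁.onto v (fun u hu => by
          rw [S.tp_injective hd ((hk _ hu (by simp [S.om_alt])).trans (map_zero _).symm), map_zero])
        obtain ⟨u, rfl⟩ := S.mem_img.1 hx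
        change S.pi a (g.symm (S.tp d w)) = 0 at h
        rw [S.be_symm, S.be_pi, S.form_skew, ← H.be_pi_symm hg, h, map_zero, LinearMap.zero_apply,
          neg_zero]
      simp [hw]
    push Not at hz
    obtain ⟨d, hd⟩ := exists_ne (0 : A)
    obtain ⟨x₀, hx₀, hpx₀, hx₀0⟩ := hz d hd
    have hR : ∀ Y, S.tequiv (S.omT 1 d) (LinearEquiv.refl F B) Y = Y + S.tp d (S.pi d Y) :=
      fun Y => by rw [S.tequiv_omT_apply, one_smul]
    have hst := H.stable_of_meet h0 hg ha (H.left_mem _ (S.om_omT 1 d)) (by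
      rw [Nat.pos_iff_ne_zero, Ne, Submodule.finrank_eq_zero]
      refine fun hbot => hx₀0 ((Submodule.mem_bot F).1 (hbot ▸ ⟨⟨x₀, hx₀, ?_⟩, hx₀⟩))
      rw [LinearEquiv.coe_coe, hR, hpx₀, map_zero, add_zero])
    refine hgT (H.isT_of_perp hos hB hg ha hd fun v w => ?_)
    have h1 := hst _ (S.tp_mem_img g a w)
    rw [hR, Submodule.add_mem_iff_right _ (S.tp_mem_img g a w)] at h1
    have h2 : S.pi d (g (S.tp a w)) = 0 := S.tp_injective hd (by rw [hzero d _ h1, map_zero])
    rw [S.form_skew, ← S.be_pi, h2, map_zero, LinearMap.zero_apply, neg_zero]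
  · have hcon : ∀ v, S.be v v ≠ 0 → ∀ x ∈ S.img g a, S.con v x = 0 := by
      intro v hv
      set k := S.tequiv (LinearEquiv.refl F A) (S.reflEquiv hv)
      have hst := H.stable_of_meet h0 hg ha (H.right_mem _ (S.be_refl hv)) (k := k) (by
        have h1 := finrank_map_add_inf_ker (S.img g a) (S.con v)
        have h2' := Submodule.finrank_le ((S.img g a).map (S.con v))
        rw [S.finrank_img g ha] at h1
        refine lt_of_lt_of_le (b := finrank F ↥(S.img g a ⊓ LinearMap.ker (S.con v))) (by omega)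
          (Submodule.finrank_mono fun x hx => ⟨⟨x, hx.1, ?_⟩, hx.1⟩)
        change k x = x
        rw [S.tequiv_refl_apply hv, LinearMap.mem_ker.1 hx.2, map_zero, LinearMap.zero_apply,
          smul_zero, sub_zero])
      intro x hx
      have h1 := hst x hx
      rw [S.tequiv_refl_apply hv, Submodule.sub_mem_iff_right _ hx,
        Submodule.smul_mem_iff _ (div_ne_zero S.two hv)] at h1
      have hv0 : v ≠ 0 := fun h => hv (by simp [h])
      by_contra hne
      exact hv0 (S.tp_injective hne (by rw [hzero _ _ h1, map_zero]))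
    have hX : S.img g a = ⊥ := (Submodule.eq_bot_iff _).2 fun x hx => S.form_ext x fun c w => by
      have hall : ∀ w, S.con w x = 0 := fun w =>
        LinearMap.congr_fun (LinearMap.ext_on S.span_nonsing (f := S.con.flip x) (g := 0)
          fun v hv => hcon v hv x hx) w
      rw [← S.om_con, hall, map_zero, LinearMap.zero_apply]
    have h1 := S.finrank_img g ha
    rw [hX, finrank_bot] at h1
    omega

/-- All elements are tensor maps, or every vector is a transvection centre. -/
theorem isT_or_centre (H : Over S M) (hB : 3 ≤ finrank F B)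
    (hdims : 4 ≤ finrank F A ∨ (finrank F A = 2 ∧ 5 ≤ finrank F B))
    (hq : 4 ≤ finrank F B ∨ ∃ k : F, k ≠ 0 ∧ k ^ 2 ≠ 1) :
    (∀ g ∈ M, S.IsT g) ∨ ∀ X, Centre S M X := by
  by_cases hos : OnlyScalar S M
  · exact Or.inl fun g hg => H.isT_of_onlyScalar hos hB hdims hg
  · exact Or.inr (H.centre_of_not_onlyScalar hB hq hos)

end Over

end CfsgLib.FormTensor91
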