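import Cfsg.Agent.FormTensor91.Step
import Cfsg.Agent.FormTensor91.Even

/-!
Two members in general position: the group generated by their root elements contains an involution.
-/

set_option autoImplicit false
set_option linter.unusedSectionVars false

namespace CfsgLib.FormTensor91

open Module CfsgLib.FieldExtMax
open scoped MatrixGroups

variable {F A B V : Type*} [Field F] [AddCommGroup A] [Module F A] [AddCommGroup B]
  [Module F B] [AddCommGroup V] [Module F V] [FiniteDimensional F A] [FiniteDimensional F B]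
  [FiniteDimensional F V] {S : Setting F A B V} {M : Subgroup (V ≃ₗ[F] V)}

/-- The orthogonal complement of the fibre splits the symmetric factor. -/
lemma Step.exists_split {g : V ≃ₗ[F] V} {a d : A} (hs : Step S g a d) (v : B) :
    ∃ w ∈ S.fib g a d, ∃ u ∈ S.be.orthogonal (S.fib g a d), w + u = v := by
  have hinf : S.fib g a d ⊓ S.be.orthogonal (S.fib g a d) = ⊥ :=
    (Submodule.eq_bot_iff _).2 fun u hu => hs.nd u hu.1 fun w hw => by
      rw [S.be_symm]; exact hu.2 w hw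
  have h1 := Submodule.finrank_sup_add_finrank_inf_eq (S.fib g a d) (S.be.orthogonal (S.fib g a d))
  rw [hinf, finrank_bot, add_zero, LinearMap.BilinForm.finrank_orthogonal S.be_nondeg] at h1
  have htop : S.fib g a d ⊔ S.be.orthogonal (S.fib g a d) = ⊤ :=
    Submodule.eq_top_of_finrank_eq (by
      have := Submodule.finrank_le (S.fib g a d)
      omega)
  exact Submodule.mem_sup.1 (htop ▸ Submodule.mem_top)

namespace Over

variable [Nontrivial A] [Finite F]

set_option maxHeartbeats 1600000 in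
/-- With four or more dimensions in the alternating factor no member has this position. -/
theorem false_of_step_large (H : Over S M) (hos : OnlyScalar S M) (hB : 3 ≤ finrank F B)
    (hA : 4 ≤ finrank F A) {g : V ≃ₗ[F] V} (hg : g ∈ M) (hgT : ¬ S.IsT g) {a d : A} (ha : a ≠ 0)
    (hd : d ≠ 0) (s₁ : Step S g a d) (s₂ : Step S g⁻¹ d a) : False := by
  have : Finite V := Module.finite_of_finite F
  obtain ⟨d', hd'⟩ := S.exists_om_one hd
  set C := S.be.orthogonal (S.fib g a d) with hCdef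
  set φ : B →ₗ[F] B := S.pi d ∘ₗ (g : V →ₗ[F] V) ∘ₗ S.tp a with hφ
  set ψ : B →ₗ[F] B := S.pi a ∘ₗ (g.symm : V →ₗ[F] V) ∘ₗ S.tp d with hψ
  set q : V →ₗ[F] B := φ ∘ₗ S.pi a ∘ₗ (g.symm : V →ₗ[F] V) with hq
  have hC : ∀ u, u ∈ C ↔ ∀ w ∈ S.fib g a d, S.be u w = 0 := fun u =>
    ⟨fun h w hw => by rw [S.be_symm]; exact h w hw, fun h w hw => by rw [S.be_symm]; exact h w hw⟩
  have hφC : ∀ u, φ u ∈ C := fun u =>
    (hC _).2 fun w hw => H.be_pi_fib hg (S.tp_mem_img g a u) hw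
  have hkill : ∀ w ∈ S.fib g a d, ψ w = 0 := fun w hw => by
    obtain ⟨u, hu⟩ := S.mem_img.1 hw
    change S.pi a (g.symm (S.tp d w)) = 0
    rw [← hu, g.symm_apply_apply, Setting.pi_tp, S.om_alt, zero_smul]
  -- the product is injective on `C`
  have hinjC : ∀ u ∈ C, φ (ψ u) = 0 → u = 0 := fun u hu h0 =>
    H.eq_zero_of_step hg s₁ s₂ ((hC u).1 hu) h0
  -- the two subspaces
  set W := S.img g a ⊔ S.mem d with hW
  have hqX : ∀ x ∈ S.img g a, q x = 0 := fun x hx => by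
    obtain ⟨u, rfl⟩ := S.mem_img.1 hx
    simp [hq, S.om_alt]
  have hpZ : ∀ w, S.pi d (S.tp d w) = 0 := fun w => by simp [S.om_alt]
  have hpC : ∀ x ∈ S.img g a, S.pi d x ∈ C := fun x hx =>
    (hC _).2 fun w hw => H.be_pi_fib hg hx hw
  have hdec : ∀ Y ∈ W, ∃ x ∈ S.img g a, ∃ w, Y = x + S.tp d w ∧ S.pi d Y = S.pi d x ∧
      q Y = φ (ψ w) := fun Y hY => by
    obtain ⟨x, hx, z, hz, rfl⟩ := Submodule.mem_sup.1 hY
    obtain ⟨w, rfl⟩ := S.mem_mem.1 hz
    refine ⟨x, hx, w, rfl, by rw [map_add, hpZ, add_zero], ?_⟩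
    rw [map_add, hqX x hx, zero_add]
    rfl
  have hD : ∀ Y ∈ W, S.pi d Y = 0 → q Y = 0 → Y ∈ S.img g a ⊓ S.mem d := by
    intro Y hY h1 h2
    obtain ⟨x, hx, w, rfl, e1, e2⟩ := hdec Y hY
    have hxZ := s₁.ker x hx (e1 ▸ h1)
    obtain ⟨w₁, hw₁, w₂, hw₂, rfl⟩ := s₁.exists_split w
    rw [e2, map_add ψ, hkill w₁ hw₁, zero_add] at h2
    rw [hinjC w₂ hw₂ h2, add_zero]
    exact ⟨Submodule.add_mem _ hx hw₁, Submodule.add_mem _ hxZ (S.tp_mem d _)⟩
  have hcoord : ∀ Y ∈ W, ∃ c₁ c₂ : C, S.pi d Y = c₁ ∧ q Y = c₂ := fun Y hY => by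
    obtain ⟨x, hx, w, rfl, e1, e2⟩ := hdec Y hY
    exact ⟨⟨_, hpC x hx⟩, ⟨_, hφC (ψ w)⟩, e1, e2⟩
  -- the algebra
  set SC : Module.End F C := (φ ∘ₗ ψ).restrict (fun u _ => hφC (ψ u)) with hSC
  have hSC' : ∀ c : C, (SC c : B) = φ (ψ c) := fun c => rfl
  set R := Algebra.adjoin F ({SC} : Set (Module.End F C))
  have : Finite (Module.End F C) := Module.finite_of_finite F
  let : CommRing R := { (inferInstance : Ring R) with
    mul_comm := fun x y => (Algebra.isMulCommutative_adjoin_singleton F SC).is_comm.comm x y }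
  set s : R := ⟨SC, Algebra.subset_adjoin (Set.mem_singleton SC)⟩ with hs
  have hsmul : ∀ (x y : R) (c : C), (x * y : R).1 c = x.1 (y.1 c) := fun x y c => rfl
  have hsinj : Function.Injective fun x : R => s * x := fun x y h => by
    refine Subtype.ext (LinearMap.ext fun c => ?_)
    have h1 : SC (x.1 c - y.1 c) = 0 := by
      have := LinearMap.congr_fun (congrArg Subtype.val h) c
      simp only [MulMemClass.coe_mul, Module.End.mul_apply, hs] at this
      rw [map_sub, this, sub_self]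
    exact sub_eq_zero.1 (Subtype.ext (hinjC _ (x.1 c - y.1 c).2 (congrArg Subtype.val h1)))
  obtain ⟨s', hs'⟩ := (Finite.injective_iff_surjective.1 hsinj) 1
  have : Nontrivial C := by
    by_contra hne
    rw [not_nontrivial_iff_subsingleton, Submodule.subsingleton_iff_eq_bot] at hne
    refine hgT (H.isT_of_maps hos hB hg ha (d := d) fun x hx => s₁.ker x hx ?_)
    have := hpC x hx
    rw [hne] at this
    exact (Submodule.mem_bot F).1 this
  have : Nontrivial R := ⟨⟨1, 0, fun h => one_ne_zero (α := Module.End F C) (congrArg Subtype.val h)⟩⟩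
  -- the generators
  obtain ⟨e, he, hey⟩ := H.inM_rootImg hg a
  have hR : ∀ Y, S.tequiv (S.omT 1 d) (LinearEquiv.refl F B) Y = Y + S.tp d (S.pi d Y) := fun Y => by
    rw [S.tequiv_omT_apply, one_smul]
  let mR : SL(2, R) := ⟨!![1, 0; s, 1], by simp [Matrix.det_fin_two]⟩
  let mT : SL(2, R) := ⟨!![1, 1; 0, 1], by simp [Matrix.det_fin_two]⟩
  let good : (V ≃ₗ[F] V) × SL(2, R) → Prop := fun p => p.1 ∈ M ∧
    (∀ Y ∈ W, p.1 Y ∈ W ∧ ∀ c₁ c₂ : C, S.pi d Y = c₁ → q Y = c₂ →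
      S.pi d (p.1 Y) = (((p.2 0 0).1 c₁ + (p.2 0 1).1 c₂ : C) : B) ∧
      q (p.1 Y) = (((p.2 1 0).1 c₁ + (p.2 1 1).1 c₂ : C) : B)) ∧
    (∀ Y, S.pi d Y = 0 → S.pi a (g.symm Y) = 0 → p.1 Y = Y) ∧
    (∀ Y ∈ S.img g a ⊓ S.mem d, p.1 Y = Y)
  have hgood_mul : ∀ x y, good x → good y → good (x * y) := by
    intro x y hx hy
    refine ⟨M.mul_mem hx.1 hy.1, fun Y hY => ⟨(hx.2.1 _ (hy.2.1 Y hY).1).1, fun c₁ c₂ e1 e2 => ?_⟩,
      fun Y h1 h2 => ?_, fun Y hY => ?_⟩
    · obtain ⟨f1, f2⟩ := (hy.2.1 Y hY).2 c₁ c₂ e1 e2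
      obtain ⟨g1, g2⟩ := (hx.2.1 _ (hy.2.1 Y hY).1).2 _ _ f1 f2
      refine ⟨g1.trans ?_, g2.trans ?_⟩ <;>
      · congr 1
        simp only [Prod.snd_mul, Matrix.SpecialLinearGroup.coe_mul, Matrix.mul_apply,
          Fin.sum_univ_two, AddMemClass.coe_add, LinearMap.add_apply, MulMemClass.coe_mul,
          Module.End.mul_apply, map_add]
        abel
    · change x.1 (y.1 Y) = Y
      rw [hy.2.2.1 Y h1 h2, hx.2.2.1 Y h1 h2]
    · change x.1 (y.1 Y) = Y
      rw [hy.2.2.2 Y hY, hx.2.2.2 Y hY]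
  have hgood_one : good 1 := ⟨M.one_mem, fun Y hY => ⟨hY, fun c₁ c₂ e1 e2 => by simp [e1, e2]⟩,
    fun Y _ _ => rfl, fun Y _ => rfl⟩
  have : Finite (Module.End F V) := Module.finite_of_finite F
  have : Finite (V ≃ₗ[F] V) := Finite.of_injective _ LinearEquiv.toLinearMap_injective
  set γR : (V ≃ₗ[F] V) × SL(2, R) := (S.tequiv (S.omT 1 d) (LinearEquiv.refl F B), mR) with hγR
  set γT : (V ≃ₗ[F] V) × SL(2, R) := (e, mT) with hγT
  have hgR : good γR := by
    refine ⟨H.left_mem _ (S.om_omT 1 d), fun Y hY => ⟨?_, fun c₁ c₂ e1 e2 => ?_⟩, fun Y h1 _ => ?_,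
      fun Y hY => ?_⟩
    · rw [hR]; exact Submodule.add_mem _ hY (Submodule.mem_sup_right (S.tp_mem d _))
    · simp only [hγR, hR, mR, map_add, hpZ, add_zero, e1, e2]
      refine ⟨?_, ?_⟩
      · simp
      · simp [hs, hSC', hq, hψ, add_comm]
    · rw [hR, h1, map_zero, add_zero]
    · obtain ⟨w, rfl⟩ := S.mem_mem.1 hY.2
      rw [hR, hpZ, map_zero, add_zero]
  have hgT' : good γT := by
    refine ⟨he, fun Y hY => ⟨?_, fun c₁ c₂ e1 e2 => ?_⟩, fun Y _ h2 => ?_, fun Y hY => ?_⟩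
    · rw [hey]; exact Submodule.add_mem _ hY (Submodule.mem_sup_left (S.rootImg_mem g a _))
    · simp only [hγT, hey, mT, map_add, hqX _ (S.rootImg_mem g a _), add_zero, e1, e2]
      refine ⟨?_, ?_⟩
      · simp [← e1, ← e2, hq, hφ, S.rootImg_apply]
      · simp
    · rw [hey, S.rootImg_apply, h2, map_zero, map_zero, add_zero]
    · rw [hey, S.rootImg_img g a hY.1, add_zero]
  set Γ := Subgroup.closure ({γR, γT} : Set ((V ≃ₗ[F] V) × SL(2, R)))
  have hΓ : ∀ p ∈ Γ, good p := by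
    intro p hp
    induction hp using Subgroup.closure_induction with
    | mem x hx => rcases hx with rfl | rfl <;> assumption
    | one => exact hgood_one
    | mul x y _ _ h1 h2 => exact hgood_mul x y h1 h2
    | inv x _ h1 =>
      have hpow : ∀ n : ℕ, good (x ^ n) := fun n => by
        induction n with
        | zero => exact hgood_one
        | succ n ih => rw [pow_succ]; exact hgood_mul _ _ ih h1
      rw [inv_eq_of_mul_eq_one_left (a := x ^ (orderOf x - 1)) (b := x) (by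
        rw [← pow_succ, Nat.sub_add_cancel (orderOf_pos x), pow_orderOf_eq_one])]
      exact hpow _
  obtain ⟨⟨j, m⟩, hjmΓ, hne', hsq'⟩ := exists_involution
    (MonoidHom.snd (V ≃ₗ[F] V) SL(2, R)) (u := γT) (l := γR) (IsUnit.of_mul_eq_one s' hs') rfl rfl
  rw [Set.pair_comm] at hjmΓ
  have hsq : j * j = 1 ∧ m * m = 1 := Prod.mk.inj hsq'
  have hne : ¬ (j = 1 ∧ m = 1) := fun h => hne' (Prod.ext h.1 h.2)
  obtain ⟨hjM, hjW, hjp, hjD⟩ := hΓ _ hjmΓ
  change j ∈ M at hjM
  have hjj : ∀ Y, j (j Y) = Y := fun Y => LinearEquiv.congr_fun hsq.1 Y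
  have hiso := H.iso j hjM
  have h2F := S.two
  have hdouble : ∀ Y, j (j Y - Y) = j Y - Y → j Y = Y := fun Y h => by
    rw [map_sub, hjj] at h
    have h3 : (2 : F) • (j Y - Y) = 0 := by
      rw [two_smul]
      nth_rw 1 [← h]
      abel
    exact sub_eq_zero.1 ((smul_eq_zero.1 h3).resolve_left h2F)
  -- the matrix is not trivial
  have hm1 : m ≠ 1 := by
    intro hm
    refine hne ⟨LinearEquiv.ext fun Y => ?_, hm⟩
    have hW1 : ∀ Y ∈ W, j Y = Y := fun Y hY => by
      obtain ⟨c₁, c₂, e1, e2⟩ := hcoord Y hY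
      obtain ⟨f1, f2⟩ := (hjW Y hY).2 c₁ c₂ e1 e2
      simp only [hm, Matrix.SpecialLinearGroup.coe_one, Matrix.one_apply_eq, ne_eq, zero_ne_one,
        one_ne_zero, not_false_eq_true, Matrix.one_apply_ne, OneMemClass.coe_one, ZeroMemClass.coe_zero,
        Module.End.one_apply, LinearMap.zero_apply, add_zero, zero_add] at f1 f2
      exact hdouble Y (hjD _ (hD _ (Submodule.sub_mem _ (hjW Y hY).1 hY)
        (by rw [map_sub, f1, e1, sub_self]) (by rw [map_sub, f2, e2, sub_self])))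
    refine hdouble Y (hjp _ ?_ ?_)
    · refine S.be_nd _ fun w => ?_
      have h1 := hiso Y (S.tp d w)
      rw [hW1 _ (Submodule.mem_sup_right (S.tp_mem d w))] at h1
      rw [S.be_pi, map_sub, LinearMap.sub_apply, h1, sub_self]
    · refine S.be_nd _ fun w => ?_
      have h1 := hiso Y (g (S.tp a w))
      rw [hW1 _ (Submodule.mem_sup_left (S.tp_mem_img g a w))] at h1
      rw [H.be_pi_symm hg, map_sub, LinearMap.sub_apply, h1, sub_self]
  -- the matrix is scalar
  obtain ⟨e01, e10, e11⟩ := scalar_of_sq_one (h := algebraMap F R (2⁻¹))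
    (by rw [← map_ofNat (algebraMap F R) 2, ← map_mul, mul_inv_cancel₀ h2F, map_one]) hsq.2
  -- it stabilises the member
  have hjd : ∀ w, j (S.tp d w) ∈ S.mem d := fun w => by
    have hw : S.tp d w ∈ W := Submodule.mem_sup_right (S.tp_mem d w)
    obtain ⟨c₁, c₂, f1, f2⟩ := hcoord _ hw
    obtain ⟨f3, -⟩ := (hjW _ hw).2 c₁ c₂ f1 f2
    obtain ⟨x, hx, v, hxv, e1, -⟩ := hdec _ (hjW _ hw).1
    have hc₁ : c₁ = 0 := Subtype.ext (by rw [← f1, hpZ]; rfl)
    rw [e01, hc₁] at f3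
    have h1 : S.pi d x = 0 := by rw [← e1, f3]; simp
    rw [hxv]
    exact Submodule.add_mem _ (s₁.ker x hx h1) (S.tp_mem d v)
  obtain ⟨x₀, y₀, hxy⟩ := H.isT_of_stab hos hB hjM hd hjd
  have : Nontrivial B := Module.nontrivial_of_finrank_pos (R := F) (by omega)
  -- a direction orthogonal to `d`
  obtain ⟨c₀, hc₀d, hc₀⟩ : ∃ c, S.om d c = 0 ∧ ∀ k : F, c ≠ k • d := by
    by_contra! h0
    have h1 : LinearMap.ker (S.om d) ≤ Submodule.span F {d} := fun c hc => by
      obtain ⟨k, hk⟩ := h0 c hc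
      exact hk ▸ Submodule.smul_mem _ k (Submodule.subset_span rfl)
    have h2 := Submodule.finrank_mono h1
    rw [finrank_span_singleton hd] at h2
    have h3 := LinearMap.finrank_range_add_finrank_ker (S.om d)
    have h4 := Submodule.finrank_le (LinearMap.range (S.om d))
    rw [Module.finrank_self] at h4
    omega
  obtain ⟨z, hdz, hcz⟩ := S.exists_orth_one hd hc₀
  have hlift : ∀ c, S.om d c = 0 → ∀ w, ∃ u, j (S.tp c w + S.tp d u) = S.tp c w + S.tp d u := by
    intro c hc w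
    have hc' := S.om_zero_comm hc
    obtain ⟨x, hx, hxu⟩ := s₂.onto (S.pi a (g.symm (S.tp c w))) fun v hv => by
      obtain ⟨v', hv'⟩ := S.mem_img.1 hv
      rw [H.be_pi_symm hg, show g (S.tp a v) = S.tp d v' by rw [← hv']; exact g.apply_symm_apply _,
        S.form_tp, hc', zero_mul]
    obtain ⟨u, rfl⟩ := S.mem_img.1 hx
    refine ⟨-u, hjp _ (by simp [hc', S.om_alt]) ?_⟩
    change S.pi a (g.symm (S.tp c w + S.tp d (-u))) = 0
    rw [map_neg, map_add g.symm, map_neg g.symm, map_add, map_neg]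
    exact add_neg_eq_zero.2 hxu.symm
  obtain ⟨v₀, hv₀⟩ := exists_ne (0 : B)
  have hker : S.om (x₀ d) z = 0 := by
    obtain ⟨v, hv⟩ := S.mem_mem.1 (hjd (y₀.symm v₀))
    rw [hxy, y₀.apply_symm_apply] at hv
    have h1 := congrArg (S.pi z) hv
    rw [Setting.pi_tp, Setting.pi_tp, hdz, zero_smul, eq_comm, smul_eq_zero] at h1
    exact h1.resolve_right hv₀
  have hy : ∀ w, S.om (x₀ c₀) z • y₀ w = w := fun w => by
    obtain ⟨u, hu⟩ := hlift c₀ hc₀d w
    have h1 := congrArg (S.pi z) hu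
    rw [map_add j, hxy, hxy] at h1
    simpa [hdz, hcz, hker] using h1
  set α := S.om (x₀ c₀) z
  have hα : α ≠ 0 := fun h0 => hv₀ (by simpa [h0] using (hy v₀).symm)
  set x : A →ₗ[F] A := α⁻¹ • (x₀ : A →ₗ[F] A) with hx
  have hjt : ∀ c w, j (S.tp c w) = S.tp (x c) w := fun c w => by
    rw [hxy, hx, LinearMap.smul_apply, map_smul, LinearMap.smul_apply, ← map_smul]
    congr 1
    rw [eq_inv_smul_iff₀ hα]
    exact hy w
  -- the eigenvalue on `d`
  obtain ⟨κ, hxd⟩ : ∃ κ : F, x d = κ • d := by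
    obtain ⟨v, hv⟩ := S.mem_mem.1 (hjd v₀)
    rw [hjt] at hv
    obtain ⟨u, -, hu⟩ := S.exists_nonsing_pair hv₀
    refine ⟨S.be v u / S.be v₀ u, S.om_eq_of_forall fun c => ?_⟩
    have h1 := congrArg (fun Y => S.be (S.pi c Y) u) hv
    simp only [Setting.pi_tp, map_smul, LinearMap.smul_apply, smul_eq_mul] at h1 ⊢
    field_simp
    linear_combination -h1
  have hjd' : ∀ w, j (S.tp d w) = κ • S.tp d w := fun w => by
    rw [hjt, hxd, map_smul, LinearMap.smul_apply]
  have hκ2 : κ * κ = 1 := by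
    have h1 := hjj (S.tp d v₀)
    rw [hjd', map_smul, hjd', smul_smul] at h1
    have h0 : S.tp d v₀ ≠ 0 := fun h0 => hv₀ (S.tp_injective hd (by rw [h0, map_zero]))
    exact smul_left_injective F h0 (h1.trans (one_smul F _).symm)
  -- on `C` the matrix is that scalar
  have hSsurj : Function.Surjective SC := LinearMap.surjective_of_injective fun u v h => by
    refine sub_eq_zero.1 (Subtype.ext (hinjC _ (u - v).2 ?_))
    rw [← hSC', map_sub, h, sub_self]
    rfl
  have hA' : (m 0 0).1 = κ • LinearMap.id := LinearMap.ext fun c => by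
    obtain ⟨w, rfl⟩ := hSsurj c
    have hw : S.tp d (w : B) ∈ W := Submodule.mem_sup_right (S.tp_mem d _)
    have hqw : ∀ w, q (S.tp d w) = φ (ψ w) := fun w => rfl
    obtain ⟨-, f2⟩ := (hjW _ hw).2 0 (SC w) (by rw [hpZ]; rfl) (by rw [hqw, hSC'])
    rw [hjd', map_smul, hqw, e10, e11, ← hSC'] at f2
    refine Subtype.ext ?_
    simpa using f2.symm
  have hκ1 : κ ≠ 1 := by
    rintro rfl
    refine hm1 (Subtype.ext (Matrix.ext fun i k => ?_))
    have h00 : m 0 0 = 1 := Subtype.ext (by rw [hA', one_smul]; rfl)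
    fin_cases i <;> fin_cases k <;> simp [e01, e10, e11, h00]
  have hκ : κ = -1 := (mul_self_eq_one_iff.1 hκ2).resolve_left hκ1
  subst hκ
  have hD0 : ∀ Y ∈ S.img g a ⊓ S.mem d, Y = 0 := fun Y hY => by
    obtain ⟨w, rfl⟩ := S.mem_mem.1 hY.2
    have h1 := (hjD _ hY).symm.trans (hjd' w)
    rw [neg_one_smul, eq_neg_iff_add_eq_zero, ← two_smul F] at h1
    exact (smul_eq_zero.1 h1).resolve_left h2F
  have hjX : ∀ X ∈ S.img g a, j X = -X := fun X hX => by
    have hXW : X ∈ W := Submodule.mem_sup_left hX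
    obtain ⟨f1, f2⟩ := (hjW X hXW).2 ⟨_, hpC X hX⟩ 0 rfl (by rw [hqX X hX]; rfl)
    rw [eq_neg_iff_add_eq_zero]
    refine hD0 _ (hD _ (Submodule.add_mem _ (hjW X hXW).1 hXW) ?_ ?_)
    · rw [map_add, f1, e01, hA']
      simp
    · rw [map_add, f2, e10, hqX X hX]
      simp
  -- a fixed member orthogonal to the image
  have hb : c₀ + x c₀ ≠ 0 := fun h0 => by
    obtain ⟨u, hu⟩ := hlift c₀ hc₀d v₀
    have h1 : x c₀ = -c₀ := eq_neg_of_add_eq_zero_right h0
    rw [map_add j, hjt, hjt, h1, hxd, neg_one_smul, map_neg, LinearMap.neg_apply, map_neg,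
      LinearMap.neg_apply] at hu
    have h3 : (2 : F) • (S.tp c₀ v₀ + S.tp d u) = 0 := by
      rw [two_smul]
      nth_rw 1 [← hu]
      abel
    have h4 := congrArg (S.pi z) ((smul_eq_zero.1 h3).resolve_left h2F)
    simp [hdz, hcz] at h4
    exact hv₀ h4
  refine hgT (H.isT_of_perp hos hB hg ha hb fun v w => ?_)
  have hbv : j (S.tp (c₀ + x c₀) v) = S.tp (c₀ + x c₀) v := by
    have h1 := hjj (S.tp c₀ v)
    rw [hjt] at h1
    rw [map_add, LinearMap.add_apply, map_add, h1, hjt, add_comm]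
  have h1 := hiso (S.tp (c₀ + x c₀) v) (g (S.tp a w))
  rw [hbv, hjX _ (S.tp_mem_img g a w), map_neg] at h1
  have h3 : (2 : F) * S.form (S.tp (c₀ + x c₀) v) (g (S.tp a w)) = 0 := by linear_combination -h1
  exact (mul_eq_zero.1 h3).resolve_left h2F

end Over

end CfsgLib.FormTensor91
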