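import Cfsg.Agent.FormTensor91.Centres

/-!
With only scalar coefficients, a unipotent element of a member stabiliser induces scalars.
-/

set_option autoImplicit false
set_option linter.unusedSectionVars false

namespace CfsgLib.FormTensor91

open Module CfsgLib.FieldExtMax

variable {F A B V : Type*} [Field F] [AddCommGroup A] [Module F A] [AddCommGroup B]
  [Module F B] [AddCommGroup V] [Module F V] [FiniteDimensional F A] [FiniteDimensional F B]
  {S : Setting F A B V} {M : Subgroup (V ≃ₗ[F] V)}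

namespace Setting

lemma exists_orth_one (S : Setting F A B V) {a c : A} (ha : a ≠ 0) (hc : ∀ k : F, c ≠ k • a) :
    ∃ z, S.om a z = 0 ∧ S.om c z = 1 := by
  obtain ⟨a', ha'⟩ := S.exists_om_one ha
  obtain ⟨z, hz, hcz⟩ : ∃ z, S.om a z = 0 ∧ S.om c z ≠ 0 := by
    by_contra! h0
    refine hc (S.om c a') (S.om_eq_of_forall fun x => ?_)
    have := h0 (x - S.om a x • a') (by simp [ha'])
    simp only [map_sub, map_smul, smul_eq_mul, sub_eq_zero] at this
    rw [map_smul, LinearMap.smul_apply, smul_eq_mul, this, mul_comm]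
  exact ⟨(S.om c z)⁻¹ • z, by simp [hz], by simp [inv_mul_cancel₀ hcz]⟩

/-- The map `u ↦ u + ω(u,a) z + ω(u,z) a` of the alternating factor. -/
noncomputable def omMixed (S : Setting F A B V) (a z : A) : A ≃ₗ[F] A :=
  ((S.omT (-1) a).trans (S.omT (-1) z)).trans (S.omT 1 (a + z))

lemma omMixed_apply (S : Setting F A B V) {a z : A} (h : S.om a z = 0) (u : A) :
    S.omMixed a z u = u + S.om u a • z + S.om u z • a := by
  have h' := S.om_zero_comm h
  simp only [omMixed, LinearEquiv.trans_apply, omT_apply, map_add, map_smul, LinearMap.add_apply,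
    LinearMap.smul_apply, smul_eq_mul, h, h', S.om_alt]
  module

lemma om_omMixed (S : Setting F A B V) (a z u v : A) :
    S.om (S.omMixed a z u) (S.omMixed a z v) = S.om u v := by
  simp only [omMixed, LinearEquiv.trans_apply, S.om_omT]

end Setting

/-- The coefficients of unipotent elements attached to `a` and `c`. -/
def Phi (S : Setting F A B V) (M : Subgroup (V ≃ₗ[F] V)) (a c : A) (φ : B →ₗ[F] B) : Prop :=
  InM M (S.sieg a c φ (S.adj φ) 0)

namespace Over

lemma phi_add {a c : A} (hac : S.om a c = 0) {φ ψ : B →ₗ[F] B}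
    (h : Phi S M a c φ) (h' : Phi S M a c ψ) : Phi S M a c (φ + ψ) := by
  have hca := S.om_zero_comm hac
  refine (h.add h' fun X => by simp [hac, hca, S.om_alt]).congr fun X => ?_
  have : S.adj (φ + ψ) = S.adj φ + S.adj ψ := LinearMap.ext fun u => S.be_eq_of_forall fun v => by
    simp [S.be_adj]
  simp [this]
  abel

lemma phi_smul_id (H : Over S M) {a c : A} (hac : S.om a c = 0) (μ : F) :
    Phi S M a c (μ • LinearMap.id) := by
  have hadj : S.adj (μ • LinearMap.id) = μ • LinearMap.id :=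
    LinearMap.ext fun u => S.be_eq_of_forall fun v => by simp [S.be_adj]
  refine ⟨_, H.left_mem (S.omMixed a (μ • c)) (S.om_omMixed a _), fun X => ?_⟩
  have := S.hom_ext (f := (S.tequiv (S.omMixed a (μ • c)) (LinearEquiv.refl F B) : V →ₗ[F] V))
    (g := LinearMap.id + S.sieg a c (μ • LinearMap.id) (S.adj (μ • LinearMap.id)) 0) fun u w => by
    simp [hadj, S.omMixed_apply (show S.om a (μ • c) = 0 by simp [hac]), map_smul, smul_smul]
    module
  exact LinearMap.congr_fun this X

lemma phi_conj (H : Over S M) {a c : A} {φ : B →ₗ[F] B} (h : Phi S M a c φ) (y : B ≃ₗ[F] B)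
    (hy : ∀ u v, S.be (y u) (y v) = S.be u v) :
    Phi S M a c ((y : B →ₗ[F] B) ∘ₗ φ ∘ₗ (y.symm : B →ₗ[F] B)) := by
  have hys : ∀ u v, S.be (y.symm u) v = S.be u (y v) := fun u v => by
    rw [← hy, y.apply_symm_apply]
  have hadj : S.adj ((y : B →ₗ[F] B) ∘ₗ φ ∘ₗ (y.symm : B →ₗ[F] B)) =
      (y : B →ₗ[F] B) ∘ₗ S.adj φ ∘ₗ (y.symm : B →ₗ[F] B) :=
    LinearMap.ext fun u => S.be_eq_of_forall fun v => by
      simp only [S.be_adj, LinearMap.comp_apply, LinearEquiv.coe_coe]
      conv_rhs => rw [← y.apply_symm_apply v, hy, S.be_adj, hys]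
  refine (h.conj (H.right_mem y hy)).congr fun X => ?_
  obtain ⟨X, rfl⟩ := (S.tequiv (LinearEquiv.refl F A) y).surjective X
  change _ = S.tequiv (LinearEquiv.refl F A) y (S.sieg a c φ (S.adj φ) 0
    ((S.tequiv (LinearEquiv.refl F A) y).symm (S.tequiv (LinearEquiv.refl F A) y X)))
  have e1 : ∀ b, S.pi b (S.tequiv (LinearEquiv.refl F A) y X) = y (S.pi b X) := fun b => by
    simpa using pi_equivariant (LinearEquiv.refl F A) y b X fun _ => rfl
  rw [LinearEquiv.symm_apply_apply]
  simp [hadj, e1]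

/-- The basic step. -/
lemma kill_step (H : Over S M) (hos : OnlyScalar S M) [Nontrivial A] {e : V ≃ₗ[F] V} (he : e ∈ M)
    {a c : A} (ha : a ≠ 0) (hac : S.om a c = 0) (hc : ∀ k : F, c ≠ k • a)
    (hfix : ∀ w, e (S.tp a w) = S.tp a w) {φ : B →ₗ[F] B}
    (hφ : ∀ w, e (S.tp c w) = S.tp c w + S.tp a (φ w)) :
    Phi S M a c φ ∧ ∃ γ : F, ∀ w, φ (S.adj φ w) = γ • w := by
  have hca := S.om_zero_comm hac
  have hpia : ∀ X, S.pi a (e.symm X) = S.pi a X := fun X => S.be_eq_of_forall fun w => by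
    rw [S.be_pi, S.be_pi, ← H.iso e he, e.apply_symm_apply, hfix]
  have hpic : ∀ X, S.pi c (e.symm X) = S.pi c X + S.adj φ (S.pi a X) := fun X =>
    S.be_eq_of_forall fun v => by
      rw [map_add, LinearMap.add_apply, S.be_adj, S.be_pi, S.be_pi, S.be_pi, ← H.iso e he,
        e.apply_symm_apply, hφ, map_add]
  set τ := φ ∘ₗ S.adj φ
  have h1 : InM M (S.sieg a c φ (S.adj φ) τ) := by
    refine (((H.coeff_id c).conj he).add ((H.coeff_id c).neg (root_root c _ _)) fun X => ?_).congr
      fun X => ?_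
    · change e (S.root c LinearMap.id (e.symm ((-S.root c LinearMap.id) X))) = 0
      simp [hpic, hca, S.om_alt]
    · change S.sieg a c φ (S.adj φ) τ X =
        e (S.root c LinearMap.id (e.symm X)) + (-S.root c LinearMap.id) X
      simp [hpic, hφ, τ]
      abel
  obtain ⟨z, hz, hcz⟩ := S.exists_orth_one ha hc
  obtain ⟨a', ha'⟩ := S.exists_om_one ha
  obtain ⟨x, hx, hxa, -, hxc, -⟩ :=
    S.exists_neg_plane (a := a) (a' := a' - S.om c a' • z) (by simp [ha', hz])
  have hxc' : x c = c := hxc c hac (S.om_zero_comm (by simp [hcz]))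
  have h2 : InM M (S.sieg a c (-φ) (-S.adj φ) τ) := by
    refine (h1.conj (H.left_mem x hx)).congr fun X => ?_
    obtain ⟨X, rfl⟩ := (S.tequiv x (LinearEquiv.refl F B)).surjective X
    change _ = S.tequiv x (LinearEquiv.refl F B) (S.sieg a c φ (S.adj φ) τ
      ((S.tequiv x (LinearEquiv.refl F B)).symm (S.tequiv x (LinearEquiv.refl F B) X)))
    have e1 := pi_equivariant (S := S) x (LinearEquiv.refl F B) a X fun d => hx d a
    have e2 := pi_equivariant (S := S) x (LinearEquiv.refl F B) c X fun d => hx d c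
    rw [hxa, map_neg, LinearMap.neg_apply, LinearEquiv.refl_apply, neg_eq_iff_eq_neg] at e1
    rw [hxc', LinearEquiv.refl_apply] at e2
    rw [LinearEquiv.symm_apply_apply]
    simp [e1, e2, hxa, hxc']
  have h3 : InM M (S.root a (τ + τ)) := (h1.add h2 fun X => by
    simp [hac, hca, S.om_alt]).congr fun X => by
      simp
      abel
  have h4 : Coeff S M τ := by
    have h5 := H.coeff_smul (H.coeff_of_inM ha h3) ((2 : F)⁻¹)
    rwa [← two_smul F τ, smul_smul, inv_mul_cancel₀ S.two, one_smul] at h5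
  refine ⟨(h1.add ((h4 a).neg (root_root a τ τ)) fun X => by
    simp [hac, hca, S.om_alt]).congr fun X => by simp; abel, ?_⟩
  obtain ⟨γ, hγ⟩ := hos τ h4
  exact ⟨γ, hγ⟩

lemma phi_scalar_sq (H : Over S M) (hos : OnlyScalar S M) [Nontrivial A] {a c : A} (ha : a ≠ 0)
    (hac : S.om a c = 0) (hc : ∀ k : F, c ≠ k • a) {φ : B →ₗ[F] B} (h : Phi S M a c φ) :
    ∃ γ : F, ∀ w, φ (S.adj φ w) = γ • w := by
  have hca := S.om_zero_comm hac
  obtain ⟨z, hz, hcz⟩ := S.exists_orth_one ha hc
  obtain ⟨e, he, hey⟩ := h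
  have hz' : ∀ k : F, z ≠ k • a := fun k hk => by
    rw [hk, map_smul, hca, smul_zero] at hcz
    exact zero_ne_one hcz
  obtain ⟨-, γ, hγ⟩ := H.kill_step hos he ha hz hz' (fun w => by simp [hey, hac, S.om_alt])
    (φ := -φ) (fun w => by
      have h1 : S.om z a = 0 := S.om_zero_comm hz
      have h2 : S.om z c = -1 := by rw [S.om_skew c z, hcz]
      simp [hey, h1, h2])
  have hadj : S.adj (-φ) = -S.adj φ :=
    LinearMap.ext fun u => S.be_eq_of_forall fun v => by simp [S.be_adj]
  exact ⟨γ, fun w => by simpa [hadj] using hγ w⟩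

/-- Unipotent elements induce scalars. -/
theorem kill (H : Over S M) (hos : OnlyScalar S M) [Nontrivial A] (hB : 3 ≤ finrank F B)
    {e : V ≃ₗ[F] V} (he : e ∈ M) {a : A} (ha : a ≠ 0) (hfix : ∀ w, e (S.tp a w) = S.tp a w)
    (hperp : ∀ X, S.pi a X = 0 → e X - X ∈ S.mem a) {c : A} (hac : S.om a c = 0) :
    ∃ μ : F, ∀ w, e (S.tp c w) = S.tp c w + μ • S.tp a w := by
  by_cases hc : ∃ k : F, c = k • a
  · obtain ⟨k, rfl⟩ := hc
    exact ⟨0, fun w => by simp [map_smul, hfix]⟩
  push Not at hc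
  obtain ⟨a', ha'⟩ := S.exists_om_one ha
  set φ : B →ₗ[F] B := S.pi a' ∘ₗ ((e : V →ₗ[F] V) - LinearMap.id) ∘ₗ S.tp c
  have hφ : ∀ w, e (S.tp c w) = S.tp c w + S.tp a (φ w) := by
    intro w
    obtain ⟨u, hu⟩ := S.mem_mem.1 (hperp (S.tp c w) (by simp [S.om_zero_comm hac]))
    have : φ w = u := by
      change S.pi a' (e (S.tp c w) - S.tp c w) = u
      rw [← hu]; simp [ha']
    rw [this, hu, add_sub_cancel]
  obtain ⟨hin, γ, hγ⟩ := H.kill_step hos he ha hac hc hfix hφ
  -- symmetric part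
  obtain ⟨γ', hγ'⟩ := H.phi_scalar_sq hos ha hac hc (phi_add hac hin (H.phi_smul_id hac 1))
  set μ := (γ' - γ - 1) / 2
  have h2 := S.two
  have hsym : ∀ w, φ w + S.adj φ w = (2 * μ) • w := by
    intro w
    have h1 := hγ' w
    have hadj : S.adj (φ + (1 : F) • LinearMap.id) = S.adj φ + LinearMap.id :=
      LinearMap.ext fun u => S.be_eq_of_forall fun v => by simp [S.be_adj]
    rw [hadj] at h1
    simp only [LinearMap.add_apply, LinearMap.smul_apply, one_smul, LinearMap.id_apply, map_add, hγ] at h1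
    rw [show (2 : F) * μ = γ' - γ - 1 by simp only [μ]; field_simp, sub_smul, sub_smul, ← h1, one_smul]
    abel
  -- the skew part
  set ψ := φ + (-μ) • LinearMap.id
  have hψ : Phi S M a c ψ := phi_add hac hin (H.phi_smul_id hac _)
  have hskew : ∀ u v, S.be (ψ u) v = -S.be u (ψ v) := by
    intro u v
    have h1 : S.be u (φ v) + S.be (φ u) v = (2 * μ) * S.be u v := by
      rw [← S.be_adj, ← LinearMap.add_apply, ← map_add, add_comm, hsym, map_smul,
        LinearMap.smul_apply, smul_eq_mul]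
    simp only [ψ, LinearMap.add_apply, LinearMap.smul_apply, LinearMap.id_apply, map_add, map_smul,
      smul_eq_mul]
    linear_combination h1
  have sq : ∀ {ψ : B →ₗ[F] B}, Phi S M a c ψ → (∀ u v, S.be (ψ u) v = -S.be u (ψ v)) →
      ∃ κ : F, ∀ w, ψ (ψ w) = κ • w := by
    intro ψ h hs
    obtain ⟨κ, hκ⟩ := H.phi_scalar_sq hos ha hac hc h
    have hadj : S.adj ψ = -ψ :=
      LinearMap.ext fun u => S.be_eq_of_forall fun v => by simp [S.be_adj, hs]
    refine ⟨-κ, fun w => ?_⟩
    have := hκ w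
    rw [hadj, LinearMap.neg_apply, map_neg, neg_eq_iff_eq_neg] at this
    rw [this, neg_smul]
  obtain ⟨κ, hκ⟩ := sq hψ hskew
  have hzero : ∀ v, S.be v v ≠ 0 → ψ v = 0 := by
    intro v hv
    set w := ψ v
    have hwv : S.be w v = 0 := by
      have h1 := hskew v v
      rw [S.be_symm v (ψ v)] at h1
      have h3 : (2 : F) * S.be w v = 0 := by linear_combination h1
      exact (mul_eq_zero.1 h3).resolve_left h2
    have hvw : S.be v w = 0 := by rw [S.be_symm]; exact hwv
    set r := S.reflEquiv hv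
    have hr : ∀ z, r z = z - (2 / S.be v v * S.be z v) • v := fun z => S.refl_apply v z
    have hrs : ∀ z, r.symm z = r z := fun z => rfl
    set ψ' := (r : B →ₗ[F] B) ∘ₗ ψ ∘ₗ (r.symm : B →ₗ[F] B)
    obtain ⟨κ', hκ'⟩ := sq (phi_add hac hψ (H.phi_conj hψ r (S.be_refl hv))) fun u u' => by
      have h1 : ∀ p q, S.be (r p) q = S.be p (r q) := fun p q => by
        simp only [hr, map_sub, map_smul, LinearMap.sub_apply, LinearMap.smul_apply, smul_eq_mul,
          S.be_symm v q]
        ring
      simp only [ψ', LinearMap.add_apply, LinearMap.comp_apply, LinearEquiv.coe_coe, map_add,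
        LinearMap.add_apply, hrs, h1, hskew]
      ring
    have key : ∀ z, ψ (r (ψ (r z))) + r (ψ (r (ψ z))) + (2 * κ) • z = κ' • z := by
      intro z
      rw [← hκ' z]
      simp only [LinearMap.add_apply, LinearMap.comp_apply, LinearEquiv.coe_coe, map_add, hrs, hκ]
      rw [show r (r (ψ (r z))) = ψ (r z) from S.refl_refl hv _, hκ, map_smul,
        show r (r z) = z from S.refl_refl hv z]
      module
    have hrv : r v = -v := by rw [hr, div_mul_cancel₀ _ hv]; module
    have hrw : r w = w := by rw [hr, hwv, mul_zero, zero_smul, sub_zero]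
    have hψw : ψ w = κ • v := hκ v
    -- a vector orthogonal to both
    obtain ⟨z, hz0, hzv, hzw⟩ : ∃ z, z ≠ 0 ∧ S.be z v = 0 ∧ S.be z w = 0 := by
      set L : B →ₗ[F] F × F := (S.be.flip v).prod (S.be.flip w)
      have h1 := LinearMap.finrank_range_add_finrank_ker L
      have h3 : finrank F (LinearMap.range L) ≤ 2 := by
        refine (Submodule.finrank_le _).trans ?_
        rw [Module.finrank_prod, Module.finrank_self]
      obtain ⟨z, hz, hz0⟩ := Submodule.exists_mem_ne_zero_of_ne_bot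
        (p := LinearMap.ker L) (fun h0 => by rw [h0, finrank_bot] at h1; omega)
      exact ⟨z, hz0, congrArg Prod.fst (LinearMap.mem_ker.1 hz),
        congrArg Prod.snd (LinearMap.mem_ker.1 hz)⟩
    have hψr : ∀ z, ψ (r (ψ z)) = κ • z + (2 / S.be v v * S.be z w) • w := fun z => by
      rw [hr, map_sub, map_smul, hκ, hskew, mul_neg, neg_smul, sub_neg_eq_add]
    have hrz : r z = z := by rw [hr, hzv, mul_zero, zero_smul, sub_zero]
    have hk := key z
    rw [hrz, hψr, hzw, mul_zero, zero_smul, add_zero, map_smul, hrz, ← add_smul, ← add_smul] at hk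
    have hk' := smul_left_injective F hz0 hk
    have hv0 : v ≠ 0 := fun h0 => hv (by simp [h0])
    have hkv := key v
    rw [hrv, map_neg, map_neg, map_neg, hψr, hvw, mul_zero, zero_smul, add_zero, map_smul, hrv,
      smul_neg, ← neg_smul, ← add_smul, ← add_smul] at hkv
    have hkv' := smul_left_injective F hv0 hkv
    have hκ0 : κ = 0 := by
      have h4 : (2 : F) * (2 * κ) = 0 := by linear_combination hk' - hkv'
      exact (mul_eq_zero.1 ((mul_eq_zero.1 h4).resolve_left h2)).resolve_left h2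
    by_contra hw0
    obtain ⟨y, hy⟩ : ∃ y, S.be w y ≠ 0 := by
      by_contra! h0
      exact hw0 (S.be_nd w h0)
    have hky := key y
    have hyw : S.be (r y) w = S.be y w := by
      conv_lhs => rw [← hrw]
      exact S.be_refl hv y w
    rw [hψr, hψr, hyw] at hky
    simp only [hκ0, zero_smul, zero_add, map_smul, hrw, mul_zero] at hky
    have hκ'0 : κ' = 0 := by rw [← hk', hκ0]; ring
    rw [hκ'0, zero_smul, add_zero, ← add_smul, smul_eq_zero] at hky
    rcases hky with h5 | h5
    · rw [← two_mul] at h5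
      rw [S.be_symm] at hy
      exact mul_ne_zero h2 (mul_ne_zero (div_ne_zero h2 hv) hy) h5
    · exact hw0 h5
  have hψ0 : ψ = 0 := by
    refine LinearMap.ext_on S.span_nonsing ?_
    intro v hv
    simpa using hzero v hv
  refine ⟨μ, fun w => ?_⟩
  have h1 := LinearMap.congr_fun hψ0 w
  have h6 : φ w = μ • w := by
    rw [← sub_eq_zero, sub_eq_add_neg, ← neg_smul]
    exact h1
  rw [hφ, h6, map_smul]

end Over

end CfsgLib.FormTensor91
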