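import Cfsg.Agent.FormTensor91.Final
import Cfsg.Agent.FieldExtMax.MatrixForm
import Cfsg.Agent.FormTensor89.Instance
import Cfsg.Agent.Classical.SympFormStd
import Cfsg.Agent.Aschbacher.SympMembers
import Cfsg.Agent.OrthGeo.Parity

/-!
Maximality of the stabiliser of a symplectic-by-orthogonal tensor decomposition.
-/

set_option autoImplicit false
set_option linter.unusedSectionVars false

namespace CfsgLib.FormTensor91

open Module Matrix Cfsg.Geo CfsgLib.OrthGeo CfsgLib.FormTensor89 CfsgLib.FieldExtMax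
open CfsgLib.SympFormStd CfsgLib.TransvGL CfsgLib.AltFormTransv

variable {F : Type*} [Field F] [Fintype F]

lemma bilinOf_nondeg {k : ℕ} {f : (Fin k → F) → (Fin k → F) → F} (hb : IsBilinearForm f)
    (hn : IsNondegenerateForm f) : ∀ x, (∀ y, bilinOf hb x y = 0) → x = 0 := fun x hx => by
  by_contra h0
  obtain ⟨y, hy⟩ := (hn x h0).2
  exact hy (hx y)

lemma even_of_symp {k : ℕ} {f : (Fin k → F) → (Fin k → F) → F} (hf : IsSymplecticForm f) : Even k := by
  have hker : LinearMap.ker (bilinOf hf.bilinear) = ⊥ := LinearMap.ker_eq_bot'.2 fun x hx =>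
    bilinOf_nondeg hf.bilinear hf.nondegenerate x fun y => LinearMap.congr_fun hx y
  have := even_rank_of_alt k (bilinOf hf.bilinear) hf.alternating (Module.finrank_fin_fun F)
  rwa [hker, finrank_bot, Module.finrank_fin_fun, Nat.sub_zero] at this

/-- The stabiliser of a symplectic-by-orthogonal tensor decomposition is maximal. -/
theorem symp_tensor_isMaximal (m : ℕ) (hodd : Odd (Fintype.card F)) (n₁ n₂ : ℕ) (hn₁ : 2 ≤ n₁)
    (hn₂ : 3 ≤ n₂) (hdims : 4 ≤ n₁ ∨ 5 ≤ n₂) (hex : ¬ (Fintype.card F = 3 ∧ n₂ = 3))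
    (e : (Fin m ⊕ Fin m) ≃ Fin n₁ × Fin n₂) (P : Matrix.GeneralLinearGroup (Fin m ⊕ Fin m) F)
    {f₁ : (Fin n₁ → F) → (Fin n₁ → F) → F} {f₂ : (Fin n₂ → F) → (Fin n₂ → F) → F}
    (hf₁ : IsSymplecticForm f₁) (hf₂ : IsSymmetricForm f₂)
    (hT : IsTensorFormStructure id (Cfsg.sympForm m F) f₁ f₂ e P) :
    IsMaximalIn (Cfsg.spGL m F) (tensorProductSubgroup n₁ n₂ e P ⊓ Cfsg.spGL m F) := by
  classical
  have hf := isSymplecticForm m F
  obtain ⟨c, hc, hcT⟩ := hT
  refine ⟨lt_of_le_of_ne inf_le_right fun h => ?_, fun M hHM hMG => ?_⟩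
  · exact CfsgLib.Aschbacher.Symp.not_le_tensorProductSubgroup hf sympT_mem_spGL hn₁
      (by omega) e P (h.ge.trans inf_le_left)
  have h2 : (2 : F) ≠ 0 := by
    refine Ring.two_ne_zero fun h => ?_
    have := (FiniteField.even_card_iff_char_two (F := F)).1 h
    rw [Nat.odd_iff] at hodd
    omega
  have hten : ∀ u z u' z', Cfsg.sympForm m F (tenLin e P u z) (tenLin e P u' z') =
      c * f₁ u u' * f₂ z z' := fun u z u' z' => by
    rw [tenLin_apply, tenLin_apply, hcT, formOfGram_pureTen hf₁.bilinear hf₂.bilinear, mul_assoc]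
  let S : Setting F (Fin n₁ → F) (Fin n₂ → F) (Fin m ⊕ Fin m → F) :=
    { om := c • bilinOf hf₁.bilinear
      be := bilinOf hf₂.bilinear
      form := bilinOf hf.bilinear
      tp := tenLin e P
      two := h2
      om_alt := fun a => by simp [bilinOf_apply, hf₁.alternating]
      om_nd := fun a ha => bilinOf_nondeg hf₁.bilinear hf₁.nondegenerate a fun y =>
        (mul_eq_zero.1 (ha y)).resolve_left hc
      be_symm := hf₂.symm
      be_nd := bilinOf_nondeg hf₂.bilinear hf₂.nondegenerate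
      form_alt := hf.alternating
      form_tp := fun a w a' w' => by
        change Cfsg.sympForm m F _ _ = (c * f₁ a a') * f₂ w w'
        exact hten a w a' w'
      form_ext := fun X hX => by
        by_contra h0
        obtain ⟨y, hy⟩ := (hf.nondegenerate X h0).2
        exact hy (LinearMap.congr_fun (LinearMap.ext_on (tenLin_span e P)
          (f := bilinOf hf.bilinear X) (g := 0) (by rintro _ ⟨u, z, rfl⟩; exact hX u z)) y) }
  set M' := M.map (glEquiv : GL (Fin m ⊕ Fin m) F ≃* _).toMonoidHom with hM'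
  have hmem : ∀ g, glEquiv g ∈ M' ↔ g ∈ M :=
    fun g => Subgroup.mem_map_equiv.trans (by rw [MulEquiv.symm_apply_apply])
  have hpos : 0 < n₁ := by omega
  have H : Over S M' :=
    { iso := fun g hg X Y => by
        obtain ⟨g, hgM, rfl⟩ := hg
        exact mem_spGL.1 (hMG hgM) X Y
      ten := fun g hT hiso => by
        obtain ⟨g, rfl⟩ := (glEquiv (ι := Fin m ⊕ Fin m) (F := F)).surjective g
        obtain ⟨x, y, hxy⟩ := hT
        rw [hmem]
        refine hHM ⟨mem_tensor_of_pure hpos e P g x y fun u z => hxy u z, mem_spGL.2 hiso⟩ }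
  have : Nontrivial (Fin n₁ → F) :=
    Module.nontrivial_of_finrank_pos (R := F) (by rw [Module.finrank_fin_fun]; omega)
  have hfin₁ := Module.finrank_fin_fun F (n := n₁)
  have hfin₂ := Module.finrank_fin_fun F (n := n₂)
  have hdims' : 4 ≤ n₁ ∨ (n₁ = 2 ∧ 5 ≤ n₂) := by
    obtain ⟨k, hk⟩ := even_of_symp hf₁
    omega
  have hq : 4 ≤ n₂ ∨ ∃ k : F, k ≠ 0 ∧ k ^ 2 ≠ 1 := by
    by_cases h4 : 4 ≤ n₂
    · exact Or.inl h4
    refine Or.inr ?_
    by_contra! hk
    refine hex ⟨?_, by omega⟩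
    have hle : Fintype.card F ≤ ({0, 1, -1} : Finset F).card := Finset.card_le_card fun k _ => by
      rcases eq_or_ne k 0 with rfl | hk0
      · simp
      · rcases sq_eq_one_iff.1 (hk k hk0) with rfl | rfl <;> simp
    have h3 := Finset.card_le_three (a := (0 : F)) (b := 1) (c := -1)
    have h1 := Fintype.one_lt_card (α := F)
    obtain ⟨j, hj⟩ := hodd
    omega
  rcases H.isT_or_centre (by rw [hfin₂]; exact hn₂) (by rw [hfin₁, hfin₂]; exact hdims')
    (by rw [hfin₂]; exact hq) with hall | hcen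
  · refine Or.inl (le_antisymm (fun g hg => ⟨?_, hMG hg⟩) hHM)
    obtain ⟨x, y, hxy⟩ := hall _ ((hmem g).2 hg)
    exact mem_tensor_of_pure hpos e P g x y fun u z => hxy u z
  · refine Or.inr (le_antisymm hMG (spGL_le_of_sympT_mem M fun v k => ?_))
    obtain ⟨g, hg, hgv⟩ := hcen v k
    have : glEquiv (sympT hf v k) = g := LinearEquiv.ext fun x => by
      rw [glEquiv_apply, sympT_mulVec, hgv, Setting.tr_apply]
      rfl
    exact (hmem _).1 (this.symm ▸ hg)

end CfsgLib.FormTensor91
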