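import Cfsg.Agent.FormTensor91.Stab

/-!
Images of members and their root elements.
-/

set_option autoImplicit false
set_option linter.unusedSectionVars false

namespace CfsgLib.FormTensor91

open Module CfsgLib.FieldExtMax

variable {F A B V : Type*} [Field F] [AddCommGroup A] [Module F A] [AddCommGroup B]
  [Module F B] [AddCommGroup V] [Module F V] [FiniteDimensional F A] [FiniteDimensional F B]
  [FiniteDimensional F V] {S : Setting F A B V} {M : Subgroup (V ≃ₗ[F] V)}

namespace Setting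

/-- The image of the member of `a` under `g`. -/
def img (S : Setting F A B V) (g : V ≃ₗ[F] V) (a : A) : Submodule F V :=
  (S.mem a).map (g : V →ₗ[F] V)

lemma mem_img (S : Setting F A B V) {g : V ≃ₗ[F] V} {a : A} {x : V} :
    x ∈ S.img g a ↔ ∃ w, g (S.tp a w) = x := by
  constructor
  · rintro ⟨_, ⟨w, rfl⟩, rfl⟩; exact ⟨w, rfl⟩
  · rintro ⟨w, rfl⟩; exact ⟨_, S.tp_mem a w, rfl⟩

lemma tp_mem_img (S : Setting F A B V) (g : V ≃ₗ[F] V) (a : A) (w : B) :
    g (S.tp a w) ∈ S.img g a := S.mem_img.2 ⟨w, rfl⟩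

lemma finrank_img (S : Setting F A B V) (g : V ≃ₗ[F] V) {a : A} (ha : a ≠ 0) :
    finrank F (S.img g a) = finrank F B := by
  rw [img, LinearEquiv.finrank_map_eq, S.finrank_mem ha]

/-- The nilpotent part of the root element attached to the image of a member. -/
noncomputable def rootImg (S : Setting F A B V) (g : V ≃ₗ[F] V) (a : A) : V →ₗ[F] V :=
  (g : V →ₗ[F] V) ∘ₗ S.root a LinearMap.id ∘ₗ (g⁻¹ : V ≃ₗ[F] V).toLinearMap

lemma rootImg_apply (S : Setting F A B V) (g : V ≃ₗ[F] V) (a : A) (Y : V) :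
    S.rootImg g a Y = g (S.tp a (S.pi a (g.symm Y))) := rfl

lemma rootImg_img (S : Setting F A B V) (g : V ≃ₗ[F] V) (a : A) {x : V} (hx : x ∈ S.img g a) :
    S.rootImg g a x = 0 := by
  obtain ⟨w, rfl⟩ := S.mem_img.1 hx
  simp [rootImg_apply, S.om_alt]

lemma rootImg_mem (S : Setting F A B V) (g : V ≃ₗ[F] V) (a : A) (Y : V) :
    S.rootImg g a Y ∈ S.img g a := S.tp_mem_img g a _

lemma rootImg_surj (S : Setting F A B V) (g : V ≃ₗ[F] V) {a : A} (ha : a ≠ 0) {x : V}
    (hx : x ∈ S.img g a) : ∃ Y, S.rootImg g a Y = x := by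
  obtain ⟨w, rfl⟩ := S.mem_img.1 hx
  obtain ⟨a', ha'⟩ := S.exists_om_one ha
  exact ⟨g (S.tp (-a') w), by simp [rootImg_apply, S.om_skew a a', ha']⟩

end Setting

namespace Over

/-- The pairing with the image of a member. -/
lemma be_pi_symm (H : Over S M) {g : V ≃ₗ[F] V} (hg : g ∈ M) (a : A) (Y : V) (w : B) :
    S.be (S.pi a (g.symm Y)) w = S.form Y (g (S.tp a w)) := by
  rw [S.be_pi, ← H.iso g hg, g.apply_symm_apply]

lemma img_isotropic (H : Over S M) {g : V ≃ₗ[F] V} (hg : g ∈ M) {a : A} {x y : V}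
    (hx : x ∈ S.img g a) (hy : y ∈ S.img g a) : S.form x y = 0 := by
  obtain ⟨w, rfl⟩ := S.mem_img.1 hx
  obtain ⟨v, rfl⟩ := S.mem_img.1 hy
  rw [H.iso g hg, S.form_tp, S.om_alt, zero_mul]

lemma inM_rootImg (H : Over S M) {g : V ≃ₗ[F] V} (hg : g ∈ M) (a : A) :
    InM M (S.rootImg g a) := (H.coeff_id a).conj hg

/-- An element mapping a member into a member is a tensor map. -/
lemma isT_of_maps (H : Over S M) (hos : OnlyScalar S M) [Nontrivial A] (hB : 3 ≤ finrank F B)
    {g : V ≃ₗ[F] V} (hg : g ∈ M) {a d : A} (ha : a ≠ 0) (h : S.img g a ≤ S.mem d) : S.IsT g := by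
  have hd : d ≠ 0 := by
    rintro rfl
    have h1 := (Submodule.finrank_mono h).trans
      (Submodule.finrank_mono (t := (⊥ : Submodule F V)) fun x hx => by
        obtain ⟨w, rfl⟩ := S.mem_mem.1 hx; simp)
    rw [S.finrank_img g ha, finrank_bot] at h1
    omega
  obtain ⟨e, he, hed⟩ := S.exists_map_vec hd ha
  have hk := H.left_mem e he
  have := H.isT_of_stab hos hB (M.mul_mem hk hg) ha fun w => by
    obtain ⟨v, hv⟩ := S.mem_mem.1 (h (S.tp_mem_img g a w))
    change S.tequiv e (LinearEquiv.refl F B) (g (S.tp a w)) ∈ _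
    rw [← hv, S.tequiv_tp, hed]
    exact S.tp_mem a _
  have h2 : g = (S.tequiv e (LinearEquiv.refl F B))⁻¹ * (S.tequiv e (LinearEquiv.refl F B) * g) := by
    simp
  rw [h2]
  exact S.isT_mul (S.isT_inv (S.isT_tequiv _ _)) this

/-- A square-zero unipotent tensor map lives on one factor. -/
lemma isT_sq_zero (S : Setting F A B V) {e : V ≃ₗ[F] V} {N : V →ₗ[F] V} (hT : S.IsT e)
    (he : ∀ Y, e Y = Y + N Y) (hN : ∀ Y, N (N Y) = 0) :
    (∃ x : A →ₗ[F] A, ∀ c w, e (S.tp c w) = S.tp (x c) w) ∨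
      ∃ y : B →ₗ[F] B, ∀ c w, e (S.tp c w) = S.tp c (y w) := by
  obtain ⟨x, y, hxy⟩ := hT
  have hquad : ∀ Y, e (e Y) + Y = (2 : F) • e Y := fun Y => by
    rw [he (e Y), he Y, map_add, hN]
    module
  by_cases hx : ∀ c, ∃ k : F, x c = k • c
  · rcases subsingleton_or_nontrivial A with hA | hA
    · exact Or.inr ⟨0, fun c w => by simp [Subsingleton.elim c 0]⟩
    obtain ⟨c₀, hc₀⟩ := exists_ne (0 : A)
    obtain ⟨k, hk⟩ := hx c₀
    refine Or.inr ⟨k • (y : B →ₗ[F] B), fun c w => ?_⟩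
    suffices x c = k • c by rw [hxy, this, LinearMap.smul_apply, map_smul, map_smul]; rfl
    obtain ⟨l, hl⟩ := hx c
    by_cases hdep : ∃ r : F, c = r • c₀
    · obtain ⟨r, rfl⟩ := hdep
      rw [map_smul, hk, smul_comm]
    obtain ⟨m, hm⟩ := hx (c + c₀)
    rw [map_add, hl, hk, smul_add] at hm
    have h5 : (l - m) • c + (k - m) • c₀ = 0 := by linear_combination (norm := module) hm
    by_cases hlm : l - m = 0
    · rw [hlm, zero_smul, zero_add, smul_eq_zero, or_iff_left hc₀, sub_eq_zero] at h5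
      rw [hl, sub_eq_zero.1 hlm, ← h5]
    · exact absurd ⟨-(k - m) / (l - m), by
        rw [div_eq_inv_mul, ← smul_smul, neg_smul, ← eq_neg_of_add_eq_zero_left h5,
          inv_smul_smul₀ hlm]⟩ hdep
  · push Not at hx
    obtain ⟨c, hc⟩ := hx
    have hc0 : c ≠ 0 := fun h0 => hc 0 (by simp [h0])
    obtain ⟨z, hz, hxz⟩ := S.exists_orth_one hc0 hc
    set α := S.om (x (x c)) z
    have h1 : ∀ w, α • y (y w) = (2 : F) • y w := fun w => by
      have := congrArg (S.pi z) (hquad (S.tp c w))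
      simpa [hxy, hz, hxz] using this
    refine Or.inl ⟨((2 : F) / α) • (x : A →ₗ[F] A), fun u w => ?_⟩
    suffices y w = ((2 : F) / α) • w by
      rw [hxy, this, LinearMap.smul_apply, map_smul, map_smul]
      rfl
    by_cases hα : α = 0
    · have h2 := h1 (y.symm w)
      rw [hα, zero_smul, y.apply_symm_apply, eq_comm, smul_eq_zero, or_iff_right S.two] at h2
      simp [h2]
    · obtain ⟨v, rfl⟩ := y.surjective w
      rw [div_eq_inv_mul, ← smul_smul, ← h1, inv_smul_smul₀ hα]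

/-- A root element of an image which is a tensor map: either the image is a member, or the root
element acts on the symmetric factor. -/
lemma exists_y_of_rootImg_isT (H : Over S M) (hos : OnlyScalar S M) [Nontrivial A]
    (hB : 3 ≤ finrank F B) {g e : V ≃ₗ[F] V} (hg : g ∈ M) (hgT : ¬ S.IsT g) {a : A} (ha : a ≠ 0)
    (hT : S.IsT e) (he : ∀ Y, e Y = Y + S.rootImg g a Y) :
    ∃ y : B →ₗ[F] B, ∀ c w, e (S.tp c w) = S.tp c (y w) := by
  have hN : ∀ Y, S.rootImg g a (S.rootImg g a Y) = 0 := fun Y =>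
    S.rootImg_img g a (S.rootImg_mem g a Y)
  rcases isT_sq_zero S hT he hN with ⟨x, hx⟩ | h
  · exfalso
    obtain ⟨c, hc⟩ : ∃ c, x c - c ≠ 0 := by
      by_contra! h0
      obtain ⟨w, hw⟩ := Module.nontrivial_of_finrank_pos (R := F) (M := B) (by omega) |>.exists_pair_ne
      have h1 : S.rootImg g a = 0 := S.hom_ext fun c v => by
        have := he (S.tp c v)
        rw [hx, sub_eq_zero.1 (h0 c), left_eq_add] at this
        rw [this]; rfl
      obtain ⟨Y, hY⟩ := S.rootImg_surj g ha (S.tp_mem_img g a (hw.choose))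
      obtain ⟨Y', hY'⟩ := S.rootImg_surj g ha (S.tp_mem_img g a w)
      rw [h1] at hY hY'
      exact hw.choose_spec (S.tp_injective ha (g.injective (hY'.symm.trans hY)))
    refine hgT (H.isT_of_maps hos hB hg ha (d := x c - c) ?_)
    refine le_of_eq (Submodule.eq_of_le_of_finrank_le ?_ ?_).symm
    · intro z hz
      obtain ⟨w, rfl⟩ := S.mem_mem.1 hz
      have := he (S.tp c w)
      rw [hx] at this
      rw [map_sub, LinearMap.sub_apply, this, add_sub_cancel_left]
      exact S.rootImg_mem g a _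
    · rw [S.finrank_img g ha, S.finrank_mem hc]
  · exact h

/-- An image orthogonal to a member is a member. -/
lemma isT_of_perp (H : Over S M) (hos : OnlyScalar S M) [Nontrivial A] (hB : 3 ≤ finrank F B)
    {g : V ≃ₗ[F] V} (hg : g ∈ M) {a d : A} (ha : a ≠ 0) (hd : d ≠ 0)
    (h : ∀ v w, S.form (S.tp d v) (g (S.tp a w)) = 0) : S.IsT g := by
  by_contra hgT
  obtain ⟨e, he, hey⟩ := H.inM_rootImg hg a
  have hfix : ∀ v, e (S.tp d v) = S.tp d v := fun v => by
    have : S.pi a (g.symm (S.tp d v)) = 0 := S.be_nd _ fun w => by rw [H.be_pi_symm hg, h]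
    rw [hey, S.rootImg_apply, this, map_zero, map_zero, add_zero]
  have hT := H.isT_of_stab hos hB he hd fun v => by rw [hfix]; exact S.tp_mem d v
  obtain ⟨y, hy⟩ := H.exists_y_of_rootImg_isT hos hB hg hgT ha hT hey
  have hy1 : ∀ v, y v = v := fun v => S.tp_injective hd (by rw [← hy, hfix])
  have h1 : S.rootImg g a = 0 := S.hom_ext fun c v => by
    have := hey (S.tp c v)
    rw [hy, hy1, left_eq_add] at this
    rw [this]; rfl
  haveI : Nontrivial B := Module.nontrivial_of_finrank_pos (R := F) (by omega)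
  obtain ⟨w, hw⟩ := exists_ne (0 : B)
  obtain ⟨Y, hY⟩ := S.rootImg_surj g ha (S.tp_mem_img g a w)
  rw [h1, LinearMap.zero_apply] at hY
  exact hw (S.tp_injective ha (g.injective (by simp [← hY])))

/-- Conjugating the root element of an image by a stabiliser of the image scales it. -/
lemma exists_scale (H : Over S M) (hos : OnlyScalar S M) {g k : V ≃ₗ[F] V} (hg : g ∈ M) (hk : k ∈ M)
    {a : A} (ha : a ≠ 0) (hst : ∀ x ∈ S.img g a, k x ∈ S.img g a) :
    ∃ c : F, ∀ Y, k (S.rootImg g a Y) = c • S.rootImg g a (k Y) := by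
  haveI : FiniteDimensional F (S.img g a) :=
    inferInstanceAs (FiniteDimensional F ((S.mem a).map (g : V →ₗ[F] V)))
  have hsurj : ∀ w, ∃ v, k (g (S.tp a v)) = g (S.tp a w) := by
    intro w
    let L : S.img g a →ₗ[F] S.img g a := (k : V →ₗ[F] V).restrict hst
    have hinj : Function.Injective L := fun x y hxy =>
      Subtype.ext (k.injective (congrArg Subtype.val hxy))
    obtain ⟨⟨x, hx⟩, hxw⟩ := LinearMap.surjective_of_injective hinj ⟨_, S.tp_mem_img g a w⟩
    obtain ⟨v, rfl⟩ := S.mem_img.1 hx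
    exact ⟨v, congrArg Subtype.val hxw⟩
  obtain ⟨e, he, hey⟩ := ((H.coeff_id a).conj (M.mul_mem (M.mul_mem (M.inv_mem hg) hk) hg))
  set h := g⁻¹ * k * g
  obtain ⟨c, hc⟩ := H.exists_root_scalar hos he ha fun X hX => by
    have h0 : S.pi a (h.symm X) = 0 := S.be_nd _ fun w => by
      rw [H.be_pi_symm (M.mul_mem (M.mul_mem (M.inv_mem hg) hk) hg)]
      change S.form X (g.symm (k (g (S.tp a w)))) = 0
      obtain ⟨v, hv⟩ := S.mem_img.1 (hst _ (S.tp_mem_img g a w))
      rw [← hv, g.symm_apply_apply, ← S.be_pi, hX, map_zero, LinearMap.zero_apply]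
    rw [hey]
    change X + h (S.root a LinearMap.id (h.symm X)) = X
    simp [h0]
  refine ⟨c, fun Y => ?_⟩
  have h1 := hc (g.symm (k Y))
  rw [hey, add_right_inj] at h1
  have h2 : h.symm (g.symm (k Y)) = g.symm Y := by
    rw [h.symm_apply_eq]
    change _ = g.symm (k (g (g.symm Y)))
    rw [g.apply_symm_apply]
  change h (S.root a LinearMap.id (h.symm (g.symm (k Y)))) = _ at h1
  rw [h2] at h1
  have h3 := congrArg g h1
  change g (g.symm (k (g _))) = _ at h3
  rw [g.apply_symm_apply, map_smul] at h3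
  exact h3

end Over

end CfsgLib.FormTensor91
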