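import Cfsg.Agent.FormTensor91.Basic

/-!
Reflections and Siegel maps of the symmetric factor, transvections of the alternating factor.
-/

set_option autoImplicit false
set_option linter.unusedSectionVars false

namespace CfsgLib.FormTensor91

open Module CfsgLib.FieldExtMax

variable {F A B V : Type*} [Field F] [AddCommGroup A] [Module F A] [AddCommGroup B]
  [Module F B] [AddCommGroup V] [Module F V] (S : Setting F A B V)

namespace Setting

/-- The reflection in `v`. -/
noncomputable def refl (v : B) : B →ₗ[F] B :=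
  LinearMap.id - (2 / S.be v v) • (LinearMap.toSpanSingleton F B v).comp (S.be.flip v)

@[simp] lemma refl_apply (v z : B) : S.refl v z = z - (2 / S.be v v * S.be z v) • v := by
  simp [refl, smul_smul]

lemma refl_refl {v : B} (hv : S.be v v ≠ 0) (z : B) : S.refl v (S.refl v z) = z := by
  simp only [refl_apply, map_sub, map_smul, LinearMap.sub_apply, LinearMap.smul_apply, smul_eq_mul]
  match_scalars <;> field_simp <;> ring

lemma be_refl {v : B} (hv : S.be v v ≠ 0) (z z' : B) :
    S.be (S.refl v z) (S.refl v z') = S.be z z' := by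
  simp only [refl_apply, map_sub, map_smul, LinearMap.sub_apply, LinearMap.smul_apply, smul_eq_mul,
    S.be_symm v z']
  field_simp
  ring

/-- The reflection as an automorphism. -/
noncomputable def reflEquiv {v : B} (hv : S.be v v ≠ 0) : B ≃ₗ[F] B :=
  LinearEquiv.ofLinearMap (S.refl v) (S.refl v) (LinearMap.ext (S.refl_refl hv))
    (LinearMap.ext (S.refl_refl hv))

@[simp] lemma reflEquiv_apply {v : B} (hv : S.be v v ≠ 0) (z : B) :
    S.reflEquiv hv z = S.refl v z := rfl

lemma exists_eichler {s x : B} (hs : S.be s s = 0) (hsx : S.be x s = 0) :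
    ∃ e : B ≃ₗ[F] B, (∀ z z', S.be (e z) (e z') = S.be z z') ∧
      (∀ z, e z = z + S.be z s • x - (S.be z x + S.be x x / 2 * S.be z s) • s) ∧
      ∀ z, e.symm z = z - S.be z s • x + (S.be z x - S.be x x / 2 * S.be z s) • s := by
  let E : B → B →ₗ[F] B := fun y => LinearMap.id + (LinearMap.toSpanSingleton F B y).comp (S.be.flip s)
    - (LinearMap.toSpanSingleton F B s).comp (S.be.flip y + (S.be y y / 2) • S.be.flip s)
  have hE : ∀ y z, E y z = z + S.be z s • y - (S.be z y + S.be y y / 2 * S.be z s) • s :=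
    fun y z => by simp [E]
  have hsx' : S.be s x = 0 := by rw [S.be_symm]; exact hsx
  have h2 := S.two
  have inv : ∀ y, S.be y s = 0 → ∀ z, E y (E (-y) z) = z := by
    intro y hy z
    have hy' : S.be s y = 0 := by rw [S.be_symm]; exact hy
    simp only [hE, map_add, map_sub, map_smul, map_neg, LinearMap.add_apply, LinearMap.sub_apply,
      LinearMap.smul_apply, LinearMap.neg_apply, smul_eq_mul, hy, hy', hs]
    match_scalars <;> field_simp <;> ring
  refine ⟨LinearEquiv.ofLinearMap (E x) (E (-x)) (LinearMap.ext (inv x hsx))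
    (LinearMap.ext fun z => by simpa using inv (-x) (by simp [hsx]) z), fun z z' => ?_, hE x,
    fun z => ?_⟩
  · change S.be (E x z) (E x z') = _
    simp only [hE, map_add, map_sub, map_smul, LinearMap.add_apply, LinearMap.sub_apply,
      LinearMap.smul_apply, smul_eq_mul, hsx, hsx', hs, S.be_symm x z', S.be_symm s z']
    field_simp
    ring
  · change E (-x) z = _
    rw [hE]
    simp only [map_neg, LinearMap.neg_apply, neg_neg]
    match_scalars <;> ring

lemma exists_nonsing_inner [Nontrivial B] : ∃ v, S.be v v ≠ 0 := by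
  by_contra! h
  obtain ⟨u, hu⟩ := exists_ne (0 : B)
  refine hu (S.be_nd u fun w => ?_)
  have := h (u + w)
  simp only [map_add, LinearMap.add_apply, h, S.be_symm w u, zero_add, add_zero] at this
  linear_combination (norm := (field_simp [S.two]; ring_nf)) (1 / 2 : F) * this

/-- A vector pairing non-trivially with `u` may be taken non-singular. -/
lemma exists_nonsing_pair {u : B} (hu : u ≠ 0) : ∃ v, S.be v v ≠ 0 ∧ S.be u v ≠ 0 := by
  obtain ⟨w, hw⟩ : ∃ w, S.be u w ≠ 0 := by
    by_contra! h; exact hu (S.be_nd u h)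
  by_cases hww : S.be w w = 0
  · by_cases huu : S.be u u = 0
    · refine ⟨w + u, ?_, ?_⟩
      · simp only [map_add, LinearMap.add_apply, hww, huu, S.be_symm w u, zero_add, add_zero]
        rw [← two_mul]
        exact mul_ne_zero S.two hw
      · simpa [huu] using hw
    · exact ⟨u, huu, huu⟩
  · exact ⟨w, hww, hw⟩

lemma span_nonsing : Submodule.span F {v | S.be v v ≠ 0} = ⊤ := by
  refine eq_top_iff.2 fun u _ => ?_
  by_cases hu : S.be u u = 0
  · rcases eq_or_ne u 0 with rfl | hu0
    · exact zero_mem _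
    obtain ⟨v, hv, huv⟩ := S.exists_nonsing_pair hu0
    -- one of two translates is non-singular
    by_cases h : S.be (u + v) (u + v) = 0
    · have h' : S.be (u - v) (u - v) ≠ 0 := by
        intro h'
        apply huv
        simp only [map_add, map_sub, LinearMap.add_apply, LinearMap.sub_apply, S.be_symm v u] at h h'
        have h4 : (2 : F) * 2 * S.be u v = 0 := by linear_combination h - h'
        exact (mul_eq_zero.1 h4).resolve_left (mul_ne_zero S.two S.two)
      have := add_mem (Submodule.subset_span (R := F) (show u - v ∈ {v | S.be v v ≠ 0} from h'))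
        (Submodule.subset_span (R := F) (show v ∈ {v | S.be v v ≠ 0} from hv))
      simpa using this
    · have := sub_mem (Submodule.subset_span (R := F) (show u + v ∈ {v | S.be v v ≠ 0} from h))
        (Submodule.subset_span (R := F) (show v ∈ {v | S.be v v ≠ 0} from hv))
      simpa using this
  · exact Submodule.subset_span hu

/-- The symmetric rank-two map of two vectors. -/
noncomputable def sym2 (v w : B) : B →ₗ[F] B :=
  (LinearMap.toSpanSingleton F B w).comp (S.be.flip v) +
    (LinearMap.toSpanSingleton F B v).comp (S.be.flip w)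

@[simp] lemma sym2_apply (v w z : B) : S.sym2 v w z = S.be z v • w + S.be z w • v := rfl

/-- Self-adjointness. -/
def SA (τ : B →ₗ[F] B) : Prop := ∀ u v, S.be (τ u) v = S.be u (τ v)

lemma sub_conj_refl {τ : B →ₗ[F] B} (hτ : S.SA τ) {v : B} (hv : S.be v v ≠ 0) :
    τ - (S.refl v) ∘ₗ τ ∘ₗ (S.refl v) =
      (2 / S.be v v) • S.sym2 v (τ v - (S.be (τ v) v / S.be v v) • v) := by
  refine LinearMap.ext fun z => ?_
  simp only [LinearMap.sub_apply, LinearMap.comp_apply, LinearMap.smul_apply, refl_apply, sym2_apply,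
    map_sub, map_smul, smul_eq_mul, ← hτ z v]
  match_scalars <;> field_simp <;> ring

/-- The adjoint. -/
noncomputable def adj [FiniteDimensional F B] (φ : B →ₗ[F] B) : B →ₗ[F] B :=
  S.be.leftAdjointOfNondegenerate S.be_nondeg φ

lemma be_adj [FiniteDimensional F B] (φ : B →ₗ[F] B) (u v : B) :
    S.be (S.adj φ u) v = S.be u (φ v) :=
  LinearMap.BilinForm.isAdjointPairLeftAdjointOfNondegenerate S.be S.be_nondeg φ u v

/-- A transvection of the alternating factor. -/
noncomputable def omT (c : F) (d : A) : A ≃ₗ[F] A :=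
  LinearEquiv.transvection (f := c • S.om.flip d) (v := d) (by simp [S.om_alt])

@[simp] lemma omT_apply (c : F) (d x : A) : S.omT c d x = x + (c * S.om x d) • d := by
  simp [omT, LinearMap.transvection.apply]

lemma om_omT (c : F) (d x y : A) : S.om (S.omT c d x) (S.omT c d y) = S.om x y := by
  simp only [omT_apply, map_add, map_smul, LinearMap.add_apply, LinearMap.smul_apply, smul_eq_mul,
    S.om_alt, S.om_skew y d]
  ring

lemma exists_map_vec {a b : A} (ha : a ≠ 0) (hb : b ≠ 0) :
    ∃ e : A ≃ₗ[F] A, (∀ x y, S.om (e x) (e y) = S.om x y) ∧ e a = b := by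
  have key : ∀ u v : A, S.om u v ≠ 0 → ∃ e : A ≃ₗ[F] A,
      (∀ x y, S.om (e x) (e y) = S.om x y) ∧ e u = v := fun u v huv =>
    ⟨S.omT (S.om u v)⁻¹ (v - u), S.om_omT _ _, by
      rw [omT_apply, map_sub, S.om_alt, sub_zero, inv_mul_cancel₀ huv, one_smul, add_sub_cancel]⟩
  obtain ⟨z, hza, hzb⟩ : ∃ z, S.om a z ≠ 0 ∧ S.om b z ≠ 0 := by
    obtain ⟨a', ha'⟩ := S.exists_om_one ha
    obtain ⟨b', hb'⟩ := S.exists_om_one hb
    by_cases h3 : S.om b a' = 0
    · by_cases h4 : S.om a b' = 0
      · exact ⟨a' + b', by simp [ha', h4], by simp [hb', h3]⟩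
      · exact ⟨b', h4, by simp [hb']⟩
    · exact ⟨a', by simp [ha'], h3⟩
  obtain ⟨e₁, p₁, h₁⟩ := key a z hza
  obtain ⟨e₂, p₂, h₂⟩ := key z b (by rw [S.om_skew b z, neg_ne_zero]; exact hzb)
  exact ⟨e₁.trans e₂, fun x y => by simp [p₁, p₂, -omT_apply], by simp [h₁, h₂]⟩

/-- The isometry that is `-1` on a hyperbolic plane and `1` on its orthogonal. -/
lemma exists_neg_plane {a a' : A} (h : S.om a a' = 1) :
    ∃ e : A ≃ₗ[F] A, (∀ x y, S.om (e x) (e y) = S.om x y) ∧ e a = -a ∧ e a' = -a' ∧
      (∀ c, S.om a c = 0 → S.om a' c = 0 → e c = c) ∧ ∀ x, e.symm x = e x := by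
  let f : A →ₗ[F] A := LinearMap.id - (2 : F) • ((LinearMap.toSpanSingleton F A a).comp (S.om.flip a')
    - (LinearMap.toSpanSingleton F A a').comp (S.om.flip a))
  have hf : ∀ x, f x = x - (2 : F) • (S.om x a' • a - S.om x a • a') := fun x => by simp [f]
  have h' : S.om a' a = -1 := by rw [S.om_skew a a', h]
  have hinv : ∀ x, f (f x) = x := fun x => by
    simp only [hf, map_sub, map_smul, LinearMap.sub_apply, LinearMap.smul_apply, smul_eq_mul, h, h',
      S.om_alt]
    match_scalars <;> ring
  refine ⟨LinearEquiv.ofLinearMap f f (LinearMap.ext hinv) (LinearMap.ext hinv), fun x y => ?_, ?_,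
    ?_, fun c hc hc' => ?_, fun x => rfl⟩
  · change S.om (f x) (f y) = _
    simp only [hf, map_sub, map_smul, LinearMap.sub_apply, LinearMap.smul_apply, smul_eq_mul, h, h',
      S.om_alt, S.om_skew y a, S.om_skew y a']
    ring
  · change f a = _
    simp only [hf, h, S.om_alt]
    module
  · change f a' = _
    simp only [hf, h', S.om_alt]
    module
  · change f c = c
    rw [hf, S.om_zero_comm hc, S.om_zero_comm hc']
    simp

end Setting

end CfsgLib.FormTensor91
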