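import Cfsg.Agent.FormTensor91.Involution

/-!
The case of a two-dimensional alternating factor: commutators with unipotent maps of the symmetric
factor give a singular coefficient.
-/

set_option autoImplicit false
set_option linter.unusedSectionVars false

namespace CfsgLib.FormTensor91

open Module CfsgLib.FieldExtMax

variable {F A B V : Type*} [Field F] [AddCommGroup A] [Module F A] [AddCommGroup B]
  [Module F B] [AddCommGroup V] [Module F V] [FiniteDimensional F A] [FiniteDimensional F B]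
  [FiniteDimensional F V] {S : Setting F A B V} {M : Subgroup (V ≃ₗ[F] V)}

namespace Over

/-- Commutators of an element fixing `A ⊗ s` with unipotent maps of the symmetric factor. -/
lemma inM_commutator (H : Over S M) {m : V ≃ₗ[F] V} (hm : m ∈ M) {s x : B}
    (hfix : ∀ u, m (S.tp u s) = S.tp u s) (hs : S.be s s = 0) (hsx : S.be x s = 0) :
    InM M (S.tp.flip s ∘ₗ (S.con x ∘ₗ ((m : V →ₗ[F] V) - (m.symm : V →ₗ[F] V)) ∘ₗ S.tp.flip x) ∘ₗ
      S.con s) := by
  have hxs : S.be s x = 0 := by rw [S.be_symm]; exact hsx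
  have h2F := S.two
  have hfix' : ∀ u, m.symm (S.tp u s) = S.tp u s := fun u => by
    rw [m.symm_apply_eq, hfix]
  have hcs : ∀ Y, S.con s (m Y) = S.con s Y := fun Y => S.om_eq_of_forall fun u => by
    rw [S.om_con, S.om_con, ← H.iso m hm Y, hfix]
  have hcs' : ∀ Y, S.con s (m.symm Y) = S.con s Y := fun Y => by
    rw [← hcs (m.symm Y), m.apply_symm_apply]
  -- the commutator for one vector
  have comm : ∀ y : B, S.be y s = 0 → ∃ U ∈ M, ∀ Y, U Y =
      Y + (S.tp (S.con s Y) y - m (S.tp (S.con s Y) y) +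
        S.tp (S.con y (m.symm Y) - S.con y Y + S.con y (m (S.tp (S.con s Y) y)) -
          S.be y y • S.con s Y) s) := by
    intro y hy
    have hy' : S.be s y = 0 := by rw [S.be_symm]; exact hy
    obtain ⟨E, hE, hEz, hEs⟩ := S.exists_eichler hs hy
    have hT : ∀ Y, S.tequiv (LinearEquiv.refl F A) E Y = Y + S.tp (S.con s Y) y -
        S.tp (S.con y Y + (S.be y y / 2) • S.con s Y) s := fun Y => by
      have := S.hom_ext (f := (S.tequiv (LinearEquiv.refl F A) E : V →ₗ[F] V))
        (g := LinearMap.id + S.tp.flip y ∘ₗ S.con s -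
          S.tp.flip s ∘ₗ (S.con y + (S.be y y / 2) • S.con s)) fun u w => by
        simp [hEz, map_smul, smul_smul, ← add_smul]
      exact LinearMap.congr_fun this Y
    have hT' : ∀ Y, S.tequiv (LinearEquiv.refl F A) E.symm Y = Y - S.tp (S.con s Y) y +
        S.tp (S.con y Y - (S.be y y / 2) • S.con s Y) s := fun Y => by
      have := S.hom_ext (f := (S.tequiv (LinearEquiv.refl F A) E.symm : V →ₗ[F] V))
        (g := LinearMap.id - S.tp.flip y ∘ₗ S.con s +
          S.tp.flip s ∘ₗ (S.con y - (S.be y y / 2) • S.con s)) fun u w => by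
        simp [hEs, map_smul, smul_smul, ← sub_smul]
      exact LinearMap.congr_fun this Y
    refine ⟨S.tequiv (LinearEquiv.refl F A) E * m * S.tequiv (LinearEquiv.refl F A) E.symm * m⁻¹,
      M.mul_mem (M.mul_mem (M.mul_mem (H.right_mem E hE) hm) (H.right_mem E.symm fun w w' => by
        rw [← hE, E.apply_symm_apply, E.apply_symm_apply])) (M.inv_mem hm), fun Y => ?_⟩
    change S.tequiv _ E (m (S.tequiv _ E.symm (m.symm Y))) = _
    rw [hT', map_add m, map_sub m, m.apply_symm_apply, hfix, hcs', hT]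
    simp only [map_add, map_sub, map_smul, Setting.con_tp, hy, hy', hs, zero_smul, hcs, add_zero,
      sub_zero, LinearMap.add_apply, LinearMap.sub_apply, LinearMap.smul_apply, map_zero,
      LinearMap.zero_apply, smul_zero, zero_add]
    match_scalars <;> field_simp <;> ring
  obtain ⟨U, hU, hUY⟩ := comm x hsx
  obtain ⟨U', hU', hUY'⟩ := comm (-x) (by simp [hsx])
  refine ⟨U * U', M.mul_mem hU hU', fun Y => ?_⟩
  have hcxs : ∀ u, S.con x (S.tp u s) = 0 := fun u => by simp [hxs]
  rw [LinearEquiv.mul_apply, hUY' Y, hUY]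
  simp only [map_add, map_sub, map_neg, map_smul, Setting.con_tp, hxs, hs, hsx, zero_smul, hcs, hcs',
    hfix, hfix', hcxs, LinearMap.add_apply, LinearMap.sub_apply, LinearMap.neg_apply,
    LinearMap.smul_apply, LinearMap.comp_apply, LinearMap.flip_apply, LinearEquiv.coe_coe,
    m.symm_apply_apply, m.apply_symm_apply, add_zero, sub_zero, neg_zero, map_zero,
    LinearMap.zero_apply, smul_zero, zero_add]
  module

variable [Nontrivial A] [Finite F]

/-- With a two-dimensional alternating factor no member has this position. -/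
theorem false_of_step_small (H : Over S M) (hos : OnlyScalar S M) (hA : finrank F A = 2)
    (hB : 5 ≤ finrank F B) {g : V ≃ₗ[F] V} (hg : g ∈ M) (hgT : ¬ S.IsT g) {a d : A} (ha : a ≠ 0)
    (hd : d ≠ 0) (s₁ : Step S g a d) (s₂ : Step S g⁻¹ d a)
    (hlo : finrank F B ≤ finrank F (S.fib g a d) + finrank F A) : False := by
  obtain ⟨d', hd'⟩ := S.exists_om_one hd
  have hd'd : S.om d' d = -1 := by rw [S.om_skew d d', hd']
  have h2F := S.two
  have hA2 : ∀ u, u = S.om u d' • d - S.om u d • d' := by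
    intro u
    set L : F × F →ₗ[F] A := (LinearMap.toSpanSingleton F A d).coprod
      (LinearMap.toSpanSingleton F A d') with hL
    have hinj : Function.Injective L := fun p q h => by
      have h1 := congrArg (fun v => S.om v d) h
      have h2 := congrArg (fun v => S.om v d') h
      simp [hL, S.om_alt, hd', hd'd] at h1 h2
      exact Prod.ext h2 h1
    obtain ⟨⟨p, q⟩, rfl⟩ := (LinearMap.injective_iff_surjective_of_finrank_eq_finrank
      (by rw [Module.finrank_prod, Module.finrank_self, hA])).1 hinj u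
    simp [hL, S.om_alt, hd', hd'd]
  set P := S.fib g a d with hP
  have hPnd : ∀ u ∈ P, u ≠ 0 → ∃ v ∈ P, S.be u v ≠ 0 := fun u hu hu0 => by
    by_contra! h0
    exact hu0 (s₁.nd u hu h0)
  have hPdim : 3 ≤ finrank F P := by omega
  have hspan : ∀ {W : Type _} [AddCommGroup W] [Module F W] (f : B →ₗ[F] W),
      (∀ v ∈ P, S.be v v ≠ 0 → f v = 0) → ∀ v ∈ P, f v = 0 := by
    intro W _ _ f hf u hu
    by_cases hun : S.be u u = 0
    · rcases eq_or_ne u 0 with rfl | hu0
      · exact map_zero f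
      obtain ⟨y, hy, huy⟩ := hPnd u hu hu0
      obtain ⟨v, hv, hvn⟩ := S.exists_nonsing_mem hu hy huy
      by_cases h1 : S.be (u + v) (u + v) = 0
      · have h2 : S.be (u - v) (u - v) ≠ 0 := by
          intro h2
          simp only [map_add, map_sub, LinearMap.add_apply, LinearMap.sub_apply, S.be_symm v u] at h1 h2
          have : (2 : F) * S.be v v = 0 := by linear_combination h1 + h2 - 2 * hun
          exact hvn ((mul_eq_zero.1 this).resolve_left h2F)
        have e1 := hf _ (P.sub_mem hu hv) h2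
        rwa [map_sub, hf v hv hvn, sub_zero] at e1
      · have e1 := hf _ (P.add_mem hu hv) h1
        rwa [map_add, hf v hv hvn, add_zero] at e1
    · exact hf u hu hun
  set N := S.rootImg g a with hN
  have hNd : ∀ v ∈ P, N (S.tp d v) = 0 := fun v hv => S.rootImg_img g a hv
  have hconX : ∀ x ∈ S.img g a, ∀ v ∈ P, S.con v x = S.om (S.con v x) d' • d := fun x hx v hv => by
    conv_lhs => rw [hA2 (S.con v x)]
    rw [← S.be_pi_con x d v, H.be_pi_fib hg hx hv, zero_smul, sub_zero]
  -- the values on `d' ⊗ v`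
  have hline : ∀ v ∈ P, S.be v v ≠ 0 → ∃ σ : F, N (S.tp d' v) = σ • S.tp d v := by
    intro v hv hvn
    set k := S.tequiv (LinearEquiv.refl F A) (S.reflEquiv hvn)
    have hk : ∀ Y, k Y = Y - (2 / S.be v v) • S.tp (S.con v Y) v := fun Y =>
      S.tequiv_refl_apply hvn Y
    have hkst : ∀ x ∈ S.img g a, k x ∈ S.img g a := fun x hx => by
      rw [hk, hconX x hx v hv, map_smul, LinearMap.smul_apply]
      exact Submodule.sub_mem _ hx (Submodule.smul_mem _ _ (Submodule.smul_mem _ _ hv))
    obtain ⟨c, hc⟩ := H.exists_scale hos hg (H.right_mem _ (S.be_refl hvn)) ha hkst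
    have hc1 : c = 1 := by
      by_contra hc1
      have h1 : ∀ Y, S.con v Y = 0 → N Y ∈ Submodule.span F {S.tp d v} := fun Y hY => by
        have h2 := hc Y
        rw [show k Y = Y by rw [hk, hY, map_zero, LinearMap.zero_apply, smul_zero, sub_zero],
          hk, hconX _ (S.rootImg_mem g a Y) v hv, map_smul, LinearMap.smul_apply, smul_smul] at h2
        have h3 : (1 - c) • N Y = (2 / S.be v v * S.om (S.con v (N Y)) d') • S.tp d v := by
          rw [sub_smul, one_smul, ← h2]; abel
        rw [← Submodule.smul_mem_iff _ (sub_ne_zero.2 (Ne.symm hc1)), h3]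
        exact Submodule.smul_mem _ _ (Submodule.subset_span rfl)
      set L : A →ₗ[F] V := N ∘ₗ ((S.be v v)⁻¹ • S.tp.flip v)
      have h4 : S.img g a ≤ Submodule.span F {S.tp d v} ⊔ LinearMap.range L := fun x hx => by
        obtain ⟨Y, rfl⟩ := S.rootImg_surj g ha hx
        rw [show S.rootImg g a Y = N (Y - (S.be v v)⁻¹ • S.tp (S.con v Y) v) + L (S.con v Y) by
          simp [L, hN]]
        refine Submodule.add_mem_sup (h1 _ ?_) (LinearMap.mem_range_self L _)
        simp [smul_smul, inv_mul_cancel₀ hvn]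
      have h5 := (Submodule.finrank_mono h4).trans (Submodule.finrank_add_le_finrank_add_finrank _ _)
      have h6 := LinearMap.finrank_range_le L
      have h7 : finrank F (Submodule.span F {S.tp d v}) ≤ 1 := by
        refine (finrank_span_le_card {S.tp d v}).trans ?_
        simp
      rw [S.finrank_img g ha] at h5
      omega
    have h2 := hc (S.tp d' v)
    rw [hc1, one_smul, hk, hk (S.tp d' v), Setting.con_tp, map_smul, LinearMap.smul_apply, smul_smul,
      div_mul_cancel₀ _ hvn, map_sub, map_smul, hconX _ (S.rootImg_mem g a _) v hv, map_smul,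
      LinearMap.smul_apply, sub_eq_sub_iff_add_eq_add] at h2
    refine ⟨(2 : F)⁻¹ * (2 / S.be v v * S.om (S.con v (N (S.tp d' v))) d'), ?_⟩
    have h3 : (2 : F) • N (S.tp d' v) =
        (2 / S.be v v * S.om (S.con v (N (S.tp d' v))) d') • S.tp d v := by
      rw [hN, mul_smul]
      exact add_left_cancel h2
    rw [← smul_smul, ← h3, inv_smul_smul₀ h2F]
  obtain ⟨σ, hσ⟩ := S.eigen_scalar hPnd hPdim (S.pi d' ∘ₗ N ∘ₗ S.tp d') fun v hv hvn => by
    obtain ⟨σ, hσ⟩ := hline v hv hvn
    exact ⟨σ, by simp [hσ, hd']⟩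
  have hN' : ∀ v ∈ P, N (S.tp d' v) = σ • S.tp d v := fun v hv => by
    refine sub_eq_zero.1 (hspan (N ∘ₗ S.tp d' - σ • S.tp d) (fun v hv hvn => ?_) v hv)
    obtain ⟨σ', hσ'⟩ := hline v hv hvn
    have h1 := hσ v hv
    simp only [LinearMap.comp_apply, hσ', map_smul, Setting.pi_tp, hd', one_smul] at h1
    simp [hσ', smul_left_injective F (fun h0 : v = 0 => hvn (by simp [h0])) h1]
  -- an element fixing `A ⊗ P`
  obtain ⟨e, he, hey⟩ := H.inM_rootImg hg a
  set m := e * S.tequiv (S.omT σ d) (LinearEquiv.refl F B)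
  have hm : m ∈ M := M.mul_mem he (H.left_mem _ (S.om_omT σ d))
  have hmY : ∀ Y, m Y = Y + σ • S.tp d (S.pi d Y) + N (Y + σ • S.tp d (S.pi d Y)) := fun Y => by
    change e (S.tequiv _ _ Y) = _
    rw [hey, S.tequiv_omT_apply]
  have hmfix : ∀ u, ∀ v ∈ P, m (S.tp u v) = S.tp u v := fun u v hv => by
    rw [hA2 u]
    have h1 : m (S.tp d v) = S.tp d v := by rw [hmY]; simp [S.om_alt, hNd v hv]
    have h2 : m (S.tp d' v) = S.tp d' v := by
      rw [hmY]
      simp [hd'd, hNd v hv, hN' v hv, map_add]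
    simp [map_sub, map_smul, h1, h2]
  -- a vector of the complement
  obtain ⟨x, hx, hxne⟩ : ∃ x, (∀ w ∈ P, S.be x w = 0) ∧ S.form (N (S.tp d x)) (S.tp d x) ≠ 0 := by
    by_contra! h0
    refine hgT (H.isT_of_maps hos (by omega) hg ha (d := d) fun z hz => s₁.ker z hz ?_)
    have hx : ∀ w ∈ P, S.be (S.pi d z) w = 0 := fun w hw => H.be_pi_fib hg hz hw
    refine H.eq_zero_of_step hg s₁ s₂ hx (S.be_nd _ fun v => ?_)
    obtain ⟨w₁, hw₁, w₂, hw₂, rfl⟩ := s₁.exists_split v
    have hw₂' : ∀ w ∈ P, S.be w₂ w = 0 := fun w hw => by rw [S.be_symm]; exact hw₂ w hw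
    have h1 := h0 (S.pi d z + w₂) fun w hw => by simp [hx w hw, hw₂' w hw]
    simp only [map_add, LinearMap.add_apply, ← hN, h0 _ hx, h0 _ hw₂', zero_add, add_zero] at h1
    rw [show S.form (N (S.tp d w₂)) (S.tp d (S.pi d z)) = S.form (N (S.tp d (S.pi d z))) (S.tp d w₂)
      from H.rootImg_symm hg a _ _, ← two_mul] at h1
    rw [map_add, H.be_pi_fib hg (S.rootImg_mem g a _) hw₁, zero_add, S.be_pi]
    exact (mul_eq_zero.1 h1).resolve_left h2F
  -- a singular vector of the fibre
  have : Nontrivial B := Module.nontrivial_of_finrank_pos (R := F) (by omega)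
  obtain ⟨s, hs, hs0, hss⟩ : ∃ s ∈ P, s ≠ 0 ∧ S.be s s = 0 := by
    have next' : ∀ (L : B →ₗ[F] F × F), ∀ p q : B, p ∈ P → q ∈ P →
        (∀ y, L y = 0 ↔ S.be y p = 0 ∧ S.be y q = 0) →
        (∀ y, ∃ y', y - y' ∈ Submodule.span F {p, q} ∧ L y' = 0) →
        ∃ c ∈ P, S.be c c ≠ 0 ∧ S.be c p = 0 ∧ S.be c q = 0 := by
      intro L p q hp hq hL hproj
      have h1 := LinearMap.finrank_range_add_finrank_ker (L.comp P.subtype)
      have h2 := Submodule.finrank_le (LinearMap.range (L.comp P.subtype))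
      rw [Module.finrank_prod, Module.finrank_self] at h2
      obtain ⟨⟨z, hz⟩, hzk, hz0⟩ := Submodule.exists_mem_ne_zero_of_ne_bot
        (p := LinearMap.ker (L.comp P.subtype)) (fun h0 => by rw [h0, finrank_bot] at h1; omega)
      obtain ⟨y, hy, hzy⟩ := hPnd z hz fun h0 => hz0 (Subtype.ext h0)
      obtain ⟨y', hyy', hy'⟩ := hproj y
      obtain ⟨hzp, hzq⟩ := (hL z).1 (LinearMap.mem_ker.1 hzk)
      have hy'P : y' ∈ P := by
        have := Submodule.sub_mem _ hy (Submodule.span_le.2
          (Set.insert_subset_iff.2 ⟨hp, Set.singleton_subset_iff.2 hq⟩) hyy')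
        simpa using this
      have hzy' : S.be z y' ≠ 0 := by
        obtain ⟨i, j, hij⟩ := Submodule.mem_span_pair.1 hyy'
        rw [show y' = y - (i • p + j • q) by rw [hij]; abel]
        simpa [hzp, hzq] using hzy
      set O := P ⊓ LinearMap.ker L
      obtain ⟨c, hc, hcn⟩ := S.exists_nonsing_mem (P := O) (u := z) (y := y')
        ⟨hz, hzk⟩ ⟨hy'P, hy'⟩ hzy'
      exact ⟨c, hc.1, hcn, ((hL c).1 hc.2).1, ((hL c).1 hc.2).2⟩
    obtain ⟨u, hu, hu0⟩ := Submodule.exists_mem_ne_zero_of_ne_bot (p := P) (fun h => by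
      rw [h, finrank_bot] at hPdim; omega)
    obtain ⟨y, hy, huy⟩ := hPnd u hu hu0
    obtain ⟨p, hp, hpn⟩ := S.exists_nonsing_mem hu hy huy
    obtain ⟨q, hq, hqn, hqp, -⟩ := next' ((S.be.flip p).prod (S.be.flip p)) p p hp hp
      (fun y => by simp) fun y => ⟨y - (S.be y p / S.be p p) • p,
        by simpa using Submodule.smul_mem _ _ (Submodule.subset_span (Set.mem_insert p {p})),
        by simp [hpn]⟩
    have hpq : S.be p q = 0 := by rw [S.be_symm]; exact hqp
    obtain ⟨c, hc, hcn, hcp, hcq⟩ := next' ((S.be.flip p).prod (S.be.flip q)) p q hp hq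
      (fun y => by simp) fun y => ⟨y - ((S.be y p / S.be p p) • p + (S.be y q / S.be q q) • q),
        by rw [sub_sub_cancel]; exact Submodule.mem_span_pair.2 ⟨_, _, rfl⟩,
        by simp [hpn, hqn, hpq, hqp]⟩
    obtain ⟨i, j, hij⟩ := S.exists_norm_eq hpn hqn hpq (-S.be c c) (neg_ne_zero.2 hcn)
    have hpc : S.be p c = 0 := by rw [S.be_symm]; exact hcp
    have hqc : S.be q c = 0 := by rw [S.be_symm]; exact hcq
    refine ⟨i • p + j • q + c, P.add_mem (P.add_mem (P.smul_mem _ hp) (P.smul_mem _ hq)) hc,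
      fun h0 => hcn ?_, ?_⟩
    · have h1 := congrArg (fun v => S.be v c) h0
      simpa [hpc, hqc] using h1
    · set w := i • p + j • q with hw
      have h1 : S.be c w = 0 := by simp [hw, hcp, hcq]
      have h2 : S.be w c = 0 := by rw [S.be_symm]; exact h1
      simp only [map_add, LinearMap.add_apply, hij, h1, h2]
      ring
  have h1 := H.inM_commutator hm (fun u => hmfix u s hs) hss (hx s hs)
  set κ := S.con x ∘ₗ ((m : V →ₗ[F] V) - (m.symm : V →ₗ[F] V)) ∘ₗ S.tp.flip x with hκ
  -- conjugate by transvections along `d`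
  have key : ∀ c : F, InM M (S.tp.flip s ∘ₗ ((S.omT c d : A →ₗ[F] A) ∘ₗ κ ∘ₗ
      (S.omT (-c) d : A →ₗ[F] A)) ∘ₗ S.con s) := fun c => by
    refine (h1.conj (H.left_mem _ (S.om_omT c d))).congr fun Y => ?_
    have hinv : ∀ u, S.omT c d (S.omT (-c) d u) = u := fun u => by
      simp [S.om_alt, map_add]
    have h2 : ∀ Y, S.con s (S.tequiv (S.omT c d) (LinearEquiv.refl F B) Y) =
        S.omT c d (S.con s Y) := fun Y => by
      rw [S.tequiv_omT_apply]
      simp [S.be_pi_con, map_smul, smul_smul]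
    obtain ⟨Y, rfl⟩ := (S.tequiv (S.omT c d) (LinearEquiv.refl F B)).surjective Y
    change S.tp _ s = S.tequiv _ _ (S.tp (κ (S.con s ((S.tequiv (S.omT c d)
      (LinearEquiv.refl F B)).symm (S.tequiv (S.omT c d) (LinearEquiv.refl F B) Y)))) s)
    rw [LinearEquiv.symm_apply_apply, S.tequiv_tp]
    simp only [LinearMap.comp_apply, LinearEquiv.coe_coe, h2]
    simp [S.om_alt, map_add]
  have hcsN : ∀ τ : A →ₗ[F] A, ∀ Y, S.con s ((S.tp.flip s ∘ₗ τ ∘ₗ S.con s) Y) = 0 := fun τ Y => by
    simp [hss]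
  have hsum := (((key 1).add (key (-1)) fun Y => by simp [hss]).add
    ((h1.add h1 fun Y => by simp [hss]).neg fun Y => by simp [hss]) fun Y => by simp [hss])
  set γ := S.om (κ d) d with hγ
  have hco : Coeff S M ((-γ) • S.sym2 s s) := by
    refine H.coeff_of_inM hd (hsum.congr fun Y => ?_)
    simp only [Setting.root_apply, LinearMap.smul_apply, Setting.sym2_apply, LinearMap.add_apply,
      LinearMap.neg_apply, LinearMap.comp_apply, LinearMap.flip_apply, LinearEquiv.coe_coe,
      Setting.omT_apply, map_add, map_smul, map_neg, neg_neg, smul_eq_mul, S.be_pi_con, ← hγ, S.om_alt]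
    module
  have hγ0 : γ ≠ 0 := by
    have h2 : γ = 2 * S.form (N (S.tp d x)) (S.tp d x) := by
      have h3 : S.form (m (S.tp d x)) (S.tp d x) = S.form (N (S.tp d x)) (S.tp d x) := by
        rw [hmY]; simp [S.om_alt, S.form_alt]
      have h4 : S.form (m.symm (S.tp d x)) (S.tp d x) = -S.form (N (S.tp d x)) (S.tp d x) := by
        rw [← h3, ← H.iso m hm (m.symm _), m.apply_symm_apply, S.form_skew (m _)]
      simp only [hγ, hκ, LinearMap.comp_apply, LinearMap.sub_apply, LinearMap.flip_apply,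
        LinearEquiv.coe_coe, map_sub, S.om_con, h3, h4]
      ring
    rw [h2]
    exact mul_ne_zero h2F hxne
  obtain ⟨c, hc⟩ := hos _ hco
  obtain ⟨v, -, hsv⟩ := S.exists_nonsing_pair hs0
  have h3 := congrArg (fun u => S.be u s) (hc v)
  simp only [LinearMap.smul_apply, Setting.sym2_apply, map_smul, map_add, LinearMap.add_apply, hss,
    smul_zero, add_zero] at h3
  have hc0 : c = 0 := by
    rw [S.be_symm] at hsv
    simpa [hsv] using h3.symm
  have h5 := hc v
  rw [hc0, zero_smul, LinearMap.smul_apply, Setting.sym2_apply, ← two_smul F, smul_smul, smul_smul,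
    smul_eq_zero, or_iff_left hs0] at h5
  rw [S.be_symm] at hsv
  exact mul_ne_zero (mul_ne_zero (neg_ne_zero.2 hγ0) h2F) hsv h5

end Over

end CfsgLib.FormTensor91
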