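import Cfsg.Agent.FormTensor91.Kill

/-!
With only scalar coefficients an element stabilising a member is a tensor map.
-/

set_option autoImplicit false
set_option linter.unusedSectionVars false

namespace CfsgLib.FormTensor91

open Module CfsgLib.FieldExtMax

variable {F A B V : Type*} [Field F] [AddCommGroup A] [Module F A] [AddCommGroup B]
  [Module F B] [AddCommGroup V] [Module F V] [FiniteDimensional F A] [FiniteDimensional F B]
  {S : Setting F A B V} {M : Subgroup (V ≃ₗ[F] V)}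

namespace Setting

/-- A tensor map is determined by pure tensors. -/
lemma equiv_ext (S : Setting F A B V) {g h : V ≃ₗ[F] V} (e : ∀ a w, g (S.tp a w) = h (S.tp a w)) :
    g = h :=
  LinearEquiv.ext fun X => LinearMap.congr_fun
    (S.hom_ext (f := (g : V →ₗ[F] V)) (g := (h : V →ₗ[F] V)) e) X

/-- The kernel of a contraction is spanned by the orthogonal pure tensors. -/
lemma mem_of_pi_eq_zero (S : Setting F A B V) {W : Submodule F V} {a : A} (ha : a ≠ 0) {X : V}
    (hX : S.pi a X = 0) (h : ∀ c w, S.om a c = 0 → S.tp c w ∈ W) : X ∈ W := by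
  obtain ⟨a', ha'⟩ := S.exists_om_one ha
  have ha'' : S.om a' a = -1 := by rw [S.om_skew a a', ha']
  let P : V →ₗ[F] V := LinearMap.id + S.tp a' ∘ₗ S.pi a
  have hP : ∀ c w, P (S.tp c w) ∈ W := fun c w => by
    have : P (S.tp c w) = S.tp (c + S.om c a • a') w := by simp [P, map_smul]
    rw [this]
    exact h _ _ (by simp [ha', S.om_skew c a])
  have hPX : P X = X := by simp [P, hX]
  rw [← hPX, S.expand (Module.finBasis F B) X, map_sum]
  exact W.sum_mem fun i _ => hP _ _

end Setting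

namespace Over

/-- An element fixing the orthogonal of a member pointwise is a root element. -/
lemma exists_root (H : Over S M) {e : V ≃ₗ[F] V} (he : e ∈ M) {a : A} (ha : a ≠ 0)
    (hfix : ∀ X, S.pi a X = 0 → e X = X) :
    ∃ τ, InM M (S.root a τ) ∧ ∀ X, e X = X + S.root a τ X := by
  obtain ⟨a', ha'⟩ := S.exists_om_one ha
  set b := -a'
  have hb : S.om b a = 1 := by simp [b, S.om_skew a a', ha']
  set N : V →ₗ[F] V := (e : V →ₗ[F] V) - LinearMap.id
  have hN : ∀ X, e X = X + N X := fun X => by simp [N]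
  have hmem : ∀ Y, N Y = S.tp a (S.pi a' (N Y)) := fun Y => by
    refine S.eq_tp_of_pi ha' fun c hc => S.be_nd _ fun w => ?_
    have hfc : e (S.tp c w) = S.tp c w := hfix _ (by simp [S.om_zero_comm hc])
    have h1 := H.iso e he Y (S.tp c w)
    rw [hfc, hN, map_add, LinearMap.add_apply, add_eq_left] at h1
    rw [S.be_pi, h1]
  set τ : B →ₗ[F] B := S.pi a' ∘ₗ N ∘ₗ S.tp b
  have key : ∀ X, e X = X + S.root a τ X := fun X => by
    have h1 : e (X - S.tp b (S.pi a X)) = X - S.tp b (S.pi a X) := hfix _ (by simp [hb])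
    rw [map_sub, hN (S.tp b _), hmem] at h1
    rw [Setting.root_apply]
    simp only [τ, LinearMap.comp_apply]
    linear_combination (norm := abel) h1
  exact ⟨τ, ⟨e, he, key⟩, key⟩

lemma exists_root_scalar (H : Over S M) (hos : OnlyScalar S M) {e : V ≃ₗ[F] V} (he : e ∈ M) {a : A}
    (ha : a ≠ 0) (hfix : ∀ X, S.pi a X = 0 → e X = X) :
    ∃ s : F, ∀ X, e X = X + s • S.tp a (S.pi a X) := by
  obtain ⟨τ, hτ, key⟩ := H.exists_root he ha hfix
  obtain ⟨s, hs⟩ := hos τ (H.coeff_of_inM ha hτ)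
  exact ⟨s, fun X => by rw [key, Setting.root_apply, hs, map_smul]⟩

lemma isT_root (S : Setting F A B V) {e : V ≃ₗ[F] V} {a : A} {s : F}
    (h : ∀ X, e X = X + s • S.tp a (S.pi a X)) : S.IsT e :=
  ⟨S.omT s a, LinearEquiv.refl F B, fun c w => by simp [h, map_smul, smul_smul]⟩

/-- An element stabilising a member is a tensor map. -/
theorem isT_of_stab (H : Over S M) (hos : OnlyScalar S M) [Nontrivial A] (hB : 3 ≤ finrank F B)
    {g : V ≃ₗ[F] V} (hg : g ∈ M) {a : A} (ha : a ≠ 0) (hst : ∀ w, g (S.tp a w) ∈ S.mem a) :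
    S.IsT g := by
  haveI : Nontrivial B := Module.nontrivial_of_finrank_pos (R := F) (by omega)
  obtain ⟨a', ha'⟩ := S.exists_om_one ha
  set G₀ : B →ₗ[F] B := S.pi a' ∘ₗ (g : V →ₗ[F] V) ∘ₗ S.tp a
  have hG₀ : ∀ w, g (S.tp a w) = S.tp a (G₀ w) := fun w => by
    obtain ⟨u, hu⟩ := S.mem_mem.1 (hst w)
    have : G₀ w = u := by
      change S.pi a' (g (S.tp a w)) = u
      rw [← hu]; simp [ha']
    rw [this, hu]
  set G := LinearEquiv.ofInjectiveEndo G₀ fun u v huv =>
    S.tp_injective ha (g.injective (by rw [hG₀, hG₀, huv]))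
  have hG : ∀ w, g (S.tp a w) = S.tp a (G w) := hG₀
  have hGi : ∀ w, g.symm (S.tp a w) = S.tp a (G.symm w) := fun w => by
    rw [g.symm_apply_eq, hG, G.apply_symm_apply]
  have hpig : ∀ X, S.pi a (g.symm X) = S.adj (G : B →ₗ[F] B) (S.pi a X) := fun X =>
    S.be_eq_of_forall fun w => by
      rw [S.be_adj, LinearEquiv.coe_coe, S.be_pi, S.be_pi, ← H.iso g hg, g.apply_symm_apply, hG]
  -- the similitude on the member
  obtain ⟨s, hs⟩ : ∃ s : F, ∀ w, G (S.adj (G : B →ₗ[F] B) w) = s • w := by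
    refine hos ((G : B →ₗ[F] B) ∘ₗ S.adj (G : B →ₗ[F] B))
      (H.coeff_of_inM ha (((H.coeff_id a).conj hg).congr fun X => ?_))
    change _ = g (S.root a LinearMap.id (g.symm X))
    simp [hG, hpig]
  have hs0 : s ≠ 0 := by
    rintro rfl
    obtain ⟨w, hw⟩ := exists_ne (0 : B)
    have h1 := hs w
    rw [zero_smul, map_eq_zero_iff G G.injective] at h1
    exact hw (S.be_nd w fun v => by
      have h2 := congrArg (fun u => S.be u (G.symm v)) h1
      simpa [S.be_adj] using h2)
  have hGadj : ∀ w, S.adj (G : B →ₗ[F] B) w = s • G.symm w := fun w => by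
    apply G.injective
    rw [hs, map_smul, G.apply_symm_apply]
  have hGb : ∀ u v, S.be (G u) (G v) = s * S.be u v := fun u v => by
    rw [← LinearEquiv.coe_coe, ← S.be_adj, hGadj, G.coe_coe, G.symm_apply_apply, map_smul,
      LinearMap.smul_apply, smul_eq_mul]
  have hGsb : ∀ u v, s * S.be (G.symm u) (G.symm v) = S.be u v := fun u v => by
    rw [← hGb, G.apply_symm_apply, G.apply_symm_apply]
  -- scalars between orthogonal members
  have hmix : ∀ c z, S.om a c = 0 → S.om a z = 0 →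
      ∃ μ : F, ∀ w, S.pi z (g.symm (S.tp c w)) = μ • G.symm w := by
    intro c z hac haz
    obtain ⟨e, he, hey⟩ := (H.phi_smul_id (a := a) haz 1).conj hg
    have hval : ∀ X, S.pi a X = 0 → e X = X + S.tp a (G (S.pi z (g.symm X))) := fun X hX => by
      rw [hey]
      congr 1
      change g (S.sieg a z _ _ 0 (g.symm X)) = _
      simp [hpig, hX, hG]
    obtain ⟨μ, hμ⟩ := H.kill hos hB he ha (fun w => by
      rw [hval _ (by simp [S.om_alt]), hGi, S.pi_tp]
      simp [haz]) (fun X hX => by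
      rw [hval X hX, add_sub_cancel_left]; exact S.tp_mem a _) hac
    refine ⟨μ, fun w => G.injective ?_⟩
    have h1 := hμ w
    rw [hval _ (by simp [S.om_zero_comm hac]), add_right_inj, ← map_smul] at h1
    rw [map_smul, G.apply_symm_apply]
    exact S.tp_injective ha h1
  -- the map on the orthogonal of `a`
  obtain ⟨w₀, hw₀⟩ := exists_ne (0 : B)
  set u₀ := G.symm w₀
  obtain ⟨v₀, hv₀⟩ : ∃ v, S.be u₀ v = 1 := by
    obtain ⟨v, -, hv⟩ := S.exists_nonsing_pair (u := u₀) (by simpa [u₀] using hw₀)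
    exact ⟨(S.be u₀ v)⁻¹ • v, by simp [inv_mul_cancel₀ hv]⟩
  set x₀ : A →ₗ[F] A := S.con v₀ ∘ₗ (g.symm : V →ₗ[F] V) ∘ₗ S.tp.flip w₀
  have hx₀a : x₀ a = a := by simp [x₀, hGi, hv₀, u₀]
  have hperp : ∀ c, S.om a c = 0 → S.om (x₀ c) a = 0 := fun c hc => by
    change S.om (S.con v₀ (g.symm (S.tp c w₀))) a = 0
    rw [← S.be_pi_con, hpig, S.pi_tp, S.om_zero_comm hc]
    simp
  have hx₀ : ∀ c, S.om a c = 0 → ∀ w, g.symm (S.tp c w) - S.tp (x₀ c) (G.symm w) ∈ S.mem a := by
    intro c hc w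
    refine S.mem_mem.2 ⟨_, (S.eq_tp_of_pi ha' fun z hz => ?_).symm⟩
    obtain ⟨μ, hμ⟩ := hmix c z hc hz
    have hom : S.om (x₀ c) z = μ := by
      change S.om (S.con v₀ (g.symm (S.tp c w₀))) z = μ
      rw [← S.be_pi_con, hμ, map_smul, LinearMap.smul_apply, hv₀, smul_eq_mul, mul_one]
    rw [map_sub, hμ, S.pi_tp, hom, sub_self]
  have homx : ∀ c d, S.om a c = 0 → S.om a d = 0 → S.om (x₀ c) (x₀ d) = s * S.om c d := by
    intro c d hc hd
    obtain ⟨v, hv⟩ := S.exists_nonsing_inner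
    obtain ⟨p, hp⟩ := S.mem_mem.1 (hx₀ c hc v)
    obtain ⟨q, hq⟩ := S.mem_mem.1 (hx₀ d hd v)
    have h1 := H.iso g hg (g.symm (S.tp c v)) (g.symm (S.tp d v))
    rw [g.apply_symm_apply, g.apply_symm_apply, eq_add_of_sub_eq hp.symm, eq_add_of_sub_eq hq.symm]
      at h1
    simp only [map_add, LinearMap.add_apply, S.form_tp, S.om_alt, hperp c hc,
      S.om_zero_comm (hperp d hd), zero_mul, zero_add, add_zero] at h1
    have h2 := hGsb v v
    refine mul_right_cancel₀ hv ?_
    linear_combination (-s) * h1 - (S.om (x₀ c) (x₀ d)) * h2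
  -- extend to a similitude
  set C : Submodule F A := LinearMap.ker (S.om a) ⊓ LinearMap.ker (S.om a') with hC
  have hnot : a ∉ C.map x₀ := by
    rintro ⟨c, ⟨hca, hca'⟩, hcx⟩
    have hca1 : S.om a c = 0 := hca
    have hca2 : S.om a' c = 0 := hca'
    have hd : ∀ d, S.om a d = 0 → S.om (c - a) d = 0 := fun d hd => by
      have h1 := homx c d hca1 hd
      rw [hcx, ← hx₀a, homx a d (S.om_alt a) hd] at h1
      rw [map_sub, LinearMap.sub_apply, ← mul_left_cancel₀ hs0 h1, sub_self]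
    have h2 : S.om (c - a) (a' - S.om a' a' • a) = S.om (c - a) a' := by simp [S.om_alt]
    have hzero : ∀ d, S.om (c - a) d = S.om a d * S.om (c - a) a' := fun d => by
      have := hd (d - S.om a d • a') (by simp [ha'])
      simp only [map_sub, map_smul, LinearMap.sub_apply, LinearMap.smul_apply, smul_eq_mul,
        sub_eq_zero] at this ⊢
      linear_combination this
    have h3 : c - a = S.om (c - a) a' • a := S.om_eq_of_forall fun d => by
      rw [hzero d, map_smul, LinearMap.smul_apply, smul_eq_mul, mul_comm]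
    have h4 : S.om (c - a) a' = -1 := by
      rw [map_sub, LinearMap.sub_apply, S.om_zero_comm hca2, ha', zero_sub]
    rw [h4, neg_one_smul, sub_eq_neg_self] at h3
    rw [h3, map_zero] at hcx
    exact ha hcx.symm
  obtain ⟨f, hf, hker⟩ := Submodule.exists_le_ker_of_notMem hnot
  obtain ⟨a'', ha''⟩ : ∃ a'', ∀ u, S.om a'' u = -s / f a * f u :=
    ⟨(-s / f a) • (S.om.toDual S.om_nondeg).symm f, fun u => by
      simp [LinearMap.BilinForm.apply_toDual_symm_apply]⟩
  have haa'' : S.om a a'' = s := by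
    rw [S.om_skew a'' a, ha'', div_mul_cancel₀ _ hf, neg_neg]
  have hCx : ∀ c ∈ C, S.om (x₀ c) a'' = 0 := fun c hc => by
    rw [S.om_skew a'', ha'', show f (x₀ c) = 0 from hker (Submodule.mem_map_of_mem hc), mul_zero,
      neg_zero]
  have hpa : ∀ p, S.om a p = 0 → S.om (x₀ p) a'' = s * S.om p a' := fun p hp => by
    have hc : p - S.om p a' • a ∈ C :=
      ⟨by simp [hp, S.om_alt], by
        change S.om a' (p - S.om p a' • a) = 0
        simp only [map_sub, map_smul, smul_eq_mul, S.om_skew a a', ha', S.om_skew p a']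
        ring⟩
    have h1 := hCx _ hc
    rw [map_sub, map_smul, hx₀a, map_sub, map_smul, LinearMap.sub_apply, LinearMap.smul_apply, haa'',
      smul_eq_mul, sub_eq_zero] at h1
    rw [h1, mul_comm]
  set x : A →ₗ[F] A := x₀ ∘ₗ (LinearMap.id - (LinearMap.toSpanSingleton F A a').comp (S.om a)) +
    (LinearMap.toSpanSingleton F A a'').comp (S.om a)
  have hx : ∀ u, x u = x₀ (u - S.om a u • a') + S.om a u • a'' := fun u => by simp [x]
  have hsim : ∀ u v, S.om (x u) (x v) = s * S.om u v := by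
    intro u v
    have hp : ∀ u, S.om a (u - S.om a u • a') = 0 := fun u => by simp [ha']
    have h0 := homx _ _ (hp u) (hp v)
    have h1 := hpa _ (hp u)
    have h2 := hpa _ (hp v)
    have h3 : S.om a'' (x₀ (v - S.om a v • a')) = -(S.om (x₀ (v - S.om a v • a')) a'') := S.om_skew _ _
    simp only [hx, map_add, LinearMap.add_apply, map_smul, LinearMap.smul_apply, smul_eq_mul, h0, h1,
      h3, h2, S.om_alt]
    simp only [map_sub, map_smul, LinearMap.sub_apply, LinearMap.smul_apply, smul_eq_mul, S.om_alt,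
      S.om_skew a' v]
    ring
  have hxinj : Function.Injective x := fun u v huv => S.om_eq_of_forall fun d => by
    refine mul_left_cancel₀ hs0 ?_
    rw [← hsim, ← hsim, huv]
  set xe := LinearEquiv.ofInjectiveEndo x hxinj
  have hxe : ∀ u, xe u = x u := fun u => rfl
  set T := S.tequiv xe G.symm
  have hTM : T ∈ M := H.tequiv_mem _ _ fun c d w w' => by
    rw [hxe, hxe, hsim]
    linear_combination S.om c d * hGsb w w'
  set e := g * T
  have heM : e ∈ M := M.mul_mem hg hTM
  have hxc : ∀ c, S.om a c = 0 → x c = x₀ c := fun c hc => by rw [hx, hc]; simp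
  have hefix : ∀ w, e (S.tp a w) = S.tp a w := fun w => by
    change g (T (S.tp a w)) = _
    rw [S.tequiv_tp, hxe, hxc a (S.om_alt a), hx₀a, hG, G.apply_symm_apply]
  have hec : ∀ c w, S.om a c = 0 → e (S.tp c w) - S.tp c w ∈ S.mem a := fun c w hc => by
    obtain ⟨p, hp⟩ := S.mem_mem.1 (hx₀ c hc w)
    change g (T (S.tp c w)) - _ ∈ _
    rw [S.tequiv_tp, hxe, hxc c hc,
      show S.tp (x₀ c) (G.symm w) = g.symm (S.tp c w) - S.tp a p by rw [hp]; abel,
      map_sub, g.apply_symm_apply, hG, sub_sub_cancel_left]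
    exact neg_mem (S.tp_mem a _)
  have heperp : ∀ X, S.pi a X = 0 → e X - X ∈ S.mem a := fun X hX =>
    Submodule.mem_comap.1 <| S.mem_of_pi_eq_zero (W := (S.mem a).comap ((e : V →ₗ[F] V) - LinearMap.id)) ha hX
      fun c w hc => Submodule.mem_comap.2 (hec c w hc)
  -- remove the scalar part
  obtain ⟨v₁, hv₁⟩ : ∃ v, S.be w₀ v = 1 := by
    obtain ⟨v, -, hv⟩ := S.exists_nonsing_pair hw₀
    exact ⟨(S.be w₀ v)⁻¹ • v, by simp [inv_mul_cancel₀ hv]⟩
  set lam : Module.Dual F A := (S.be.flip v₁) ∘ₗ S.pi a' ∘ₗ ((e : V →ₗ[F] V) - LinearMap.id) ∘ₗ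
    S.tp.flip w₀ ∘ₗ (LinearMap.id - (LinearMap.toSpanSingleton F A a').comp (S.om a))
  set z := (S.om.toDual S.om_nondeg).symm lam
  have hzu : ∀ u, S.om z u = lam u := fun u => by
    simp [z, LinearMap.BilinForm.apply_toDual_symm_apply]
  have hlam : ∀ c, S.om a c = 0 → ∀ w, e (S.tp c w) = S.tp c w + lam c • S.tp a w := by
    intro c hc w
    obtain ⟨μ, hμ⟩ := H.kill hos hB heM ha hefix heperp hc
    have : lam c = μ := by simp [lam, hc, hμ, ha', hv₁]
    rw [this, hμ]
  have haz : S.om a z = 0 := S.om_zero_comm (by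
    rw [hzu]; simp [lam, S.om_alt, hefix])
  set m := S.tequiv (S.omMixed a z) (LinearEquiv.refl F B)
  have hmM : m ∈ M := H.left_mem _ (S.om_omMixed a z)
  obtain ⟨t, ht⟩ := H.exists_root_scalar hos (M.mul_mem hmM heM) ha fun X hX =>
    sub_eq_zero.1 <| LinearMap.mem_ker.1 <| S.mem_of_pi_eq_zero
      (W := LinearMap.ker (((m * e : V ≃ₗ[F] V) : V →ₗ[F] V) - LinearMap.id)) ha hX fun c w hc => by
        change m (e (S.tp c w)) - S.tp c w = 0
        rw [hlam c hc, map_add, map_smul, S.tequiv_tp, S.tequiv_tp, S.omMixed_apply haz,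
          S.omMixed_apply haz, S.om_alt, haz, S.om_zero_comm hc, S.om_skew z c, hzu]
        simp [map_smul]
  have h1 : g = m⁻¹ * (m * e) * T⁻¹ := by simp [e, mul_assoc]
  rw [h1]
  exact S.isT_mul (S.isT_mul (S.isT_inv (S.isT_tequiv _ _)) (isT_root S ht)) (S.isT_inv (S.isT_tequiv _ _))

end Over

end CfsgLib.FormTensor91
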