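import Cfsg.Agent.FormTensor91.Members

/-!
The position of the image of a member relative to a member, when it meets it maximally.
-/

set_option autoImplicit false
set_option linter.unusedSectionVars false

namespace CfsgLib.FormTensor91

open Module CfsgLib.FieldExtMax

variable {F A B V : Type*} [Field F] [AddCommGroup A] [Module F A] [AddCommGroup B]
  [Module F B] [AddCommGroup V] [Module F V] [FiniteDimensional F A] [FiniteDimensional F B]
  [FiniteDimensional F V] {S : Setting F A B V} {M : Subgroup (V ≃ₗ[F] V)}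

lemma finrank_map_add_inf_ker {W : Type*} [AddCommGroup W] [Module F W] [FiniteDimensional F W]
    (X : Submodule F V) (f : V →ₗ[F] W) :
    finrank F (X.map f) + finrank F ↥(X ⊓ LinearMap.ker f) = finrank F X := by
  have h := LinearMap.finrank_range_add_finrank_ker (f.comp X.subtype)
  rwa [LinearMap.range_comp, Submodule.range_subtype, LinearMap.ker_comp,
    ← Submodule.finrank_map_subtype_eq, Submodule.map_comap_subtype] at h

namespace Setting

/-- The part of the symmetric factor seen in the image of a member. -/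
def fib (S : Setting F A B V) (g : V ≃ₗ[F] V) (a d : A) : Submodule F B :=
  (S.img g a).comap (S.tp d)

lemma mem_fib (S : Setting F A B V) {g : V ≃ₗ[F] V} {a d : A} {w : B} :
    w ∈ S.fib g a d ↔ S.tp d w ∈ S.img g a := Iff.rfl

lemma finrank_fib (S : Setting F A B V) (g : V ≃ₗ[F] V) (a : A) {d : A} (hd : d ≠ 0) :
    finrank F (S.fib g a d) = finrank F ↥(S.img g a ⊓ S.mem d) := by
  rw [inf_comm, Setting.mem, ← Submodule.map_comap_eq]
  exact (Submodule.equivMapOfInjective _ (S.tp_injective hd) _).finrank_eq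

lemma map_img_inv_inf (S : Setting F A B V) (g : V ≃ₗ[F] V) (a d : A) :
    (S.img g⁻¹ d ⊓ S.mem a).map (g : V →ₗ[F] V) = S.img g a ⊓ S.mem d := by
  rw [Submodule.map_inf _ g.injective, inf_comm]
  congr 1
  rw [img, ← Submodule.map_comp]
  refine (congrArg (fun f => Submodule.map f (S.mem d)) ?_).trans (Submodule.map_id _)
  exact LinearMap.ext fun X => g.apply_symm_apply X

lemma finrank_img_inv_inf (S : Setting F A B V) (g : V ≃ₗ[F] V) (a d : A) :
    finrank F ↥(S.img g⁻¹ d ⊓ S.mem a) = finrank F ↥(S.img g a ⊓ S.mem d) := by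
  rw [← S.map_img_inv_inf g a d, LinearEquiv.finrank_map_eq]

lemma tequiv_omT_apply (S : Setting F A B V) (c : F) (d : A) (Y : V) :
    S.tequiv (S.omT c d) (LinearEquiv.refl F B) Y = Y + c • S.tp d (S.pi d Y) := by
  have := S.hom_ext (f := (S.tequiv (S.omT c d) (LinearEquiv.refl F B) : V →ₗ[F] V))
    (g := LinearMap.id + c • (S.tp d ∘ₗ S.pi d)) fun a w => by simp [map_smul, smul_smul]
  exact LinearMap.congr_fun this Y

lemma tequiv_refl_apply (S : Setting F A B V) {v : B} (hv : S.be v v ≠ 0) (Y : V) :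
    S.tequiv (LinearEquiv.refl F A) (S.reflEquiv hv) Y =
      Y - (2 / S.be v v) • S.tp (S.con v Y) v := by
  have := S.hom_ext (f := (S.tequiv (LinearEquiv.refl F A) (S.reflEquiv hv) : V →ₗ[F] V))
    (g := LinearMap.id - (2 / S.be v v) • (S.tp.flip v ∘ₗ S.con v)) fun a w => by
      simp [map_smul, smul_smul]
  exact LinearMap.congr_fun this Y

end Setting

/-- The position of the image of a member with respect to a member. -/
structure Step (S : Setting F A B V) (g : V ≃ₗ[F] V) (a d : A) : Prop where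
  ker : ∀ x ∈ S.img g a, S.pi d x = 0 → x ∈ S.mem d
  onto : ∀ u, (∀ w ∈ S.fib g a d, S.be u w = 0) → ∃ x ∈ S.img g a, S.pi d x = u
  nd : ∀ u ∈ S.fib g a d, (∀ w ∈ S.fib g a d, S.be u w = 0) → u = 0

namespace Over

lemma be_pi_fib (H : Over S M) {g : V ≃ₗ[F] V} (hg : g ∈ M) {a d : A} {x : V}
    (hx : x ∈ S.img g a) {w : B} (hw : w ∈ S.fib g a d) : S.be (S.pi d x) w = 0 := by
  rw [S.be_pi]
  exact H.img_isotropic hg hx hw

/-- The root element of an image is symmetric. -/
lemma rootImg_symm (H : Over S M) {g : V ≃ₗ[F] V} (hg : g ∈ M) (a : A) (Y Y' : V) :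
    S.form (S.rootImg g a Y) Y' = S.form (S.rootImg g a Y') Y := by
  rw [S.rootImg_apply, S.rootImg_apply, S.form_skew Y' (g _), S.form_skew Y (g _),
    ← H.be_pi_symm hg, ← H.be_pi_symm hg, S.be_symm]

/-- The product of the two projections is injective on the complement of the fibre. -/
lemma eq_zero_of_step (H : Over S M) {g : V ≃ₗ[F] V} (hg : g ∈ M) {a d : A}
    (s₁ : Step S g a d) (s₂ : Step S g⁻¹ d a) {u : B}
    (hu : ∀ w ∈ S.fib g a d, S.be u w = 0) (h0 : S.pi d (S.rootImg g a (S.tp d u)) = 0) :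
    u = 0 := by
  obtain ⟨v, hv⟩ := S.mem_mem.1 (s₁.ker _ (S.rootImg_mem g a _) h0)
  have hψu : S.pi a (g.symm (S.tp d u)) = 0 := by
    refine s₂.nd _ ?_ fun w hw => ?_
    · refine S.mem_img.2 ⟨v, ?_⟩
      change g.symm (S.tp d v) = _
      rw [hv, S.rootImg_apply, g.symm_apply_apply]
    · exact H.be_pi_fib (M.inv_mem hg) (S.tp_mem_img g⁻¹ d u) hw
  refine s₁.nd u ?_ hu
  -- `u` is orthogonal to its complement
  have horth : ∀ z, (∀ w ∈ S.fib g a d, S.be z w = 0) → S.be u z = 0 := fun z hz => by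
    obtain ⟨x, hx, rfl⟩ := s₁.onto z hz
    obtain ⟨y, rfl⟩ := S.mem_img.1 hx
    rw [S.be_symm, S.be_pi, S.form_skew, ← H.be_pi_symm hg, hψu, map_zero, LinearMap.zero_apply,
      neg_zero]
  have h1 : u ∈ S.be.orthogonal (S.be.orthogonal (S.fib g a d)) := fun z hz => by
    rw [S.be_symm]
    exact horth z fun w hw => by rw [S.be_symm]; exact hz w hw
  rwa [LinearMap.BilinForm.orthogonal_orthogonal S.be_nondeg fun x y h => by
    rw [S.be_symm]; exact h] at h1

variable [Nontrivial A]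

/-- If an element meets the image in more than `δ` dimensions then it stabilises the image. -/
lemma stable_of_meet (_H : Over S M) {δ : ℕ}
    (hIH : ∀ g ∈ M, ∀ a d : A, a ≠ 0 → d ≠ 0 →
      δ < finrank F ↥(S.img g a ⊓ S.mem d) → S.IsT g)
    {g : V ≃ₗ[F] V} (hg : g ∈ M) {a : A} (ha : a ≠ 0) {k : V ≃ₗ[F] V} (hk : k ∈ M)
    (hbig : δ < finrank F ↥((S.img g a).map (k : V →ₗ[F] V) ⊓ S.img g a)) :
    ∀ x ∈ S.img g a, k x ∈ S.img g a := by
  set h := g⁻¹ * (k * g)
  have hh : h ∈ M := M.mul_mem (M.inv_mem hg) (M.mul_mem hk hg)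
  have hgh : ∀ Y, g (h Y) = k (g Y) := fun Y => g.apply_symm_apply _
  have hmap : (S.img h a ⊓ S.mem a).map (g : V →ₗ[F] V) =
      (S.img g a).map (k : V →ₗ[F] V) ⊓ S.img g a := by
    rw [Submodule.map_inf _ g.injective]
    congr 1
    rw [Setting.img, Setting.img, ← Submodule.map_comp, ← Submodule.map_comp]
    exact congrArg (fun f => Submodule.map f (S.mem a)) (LinearMap.ext hgh)
  have hbig' : δ < finrank F ↥(S.img h a ⊓ S.mem a) := by
    rwa [← hmap, LinearEquiv.finrank_map_eq] at hbig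
  obtain ⟨x, y, hxy⟩ := hIH h hh a a ha ha hbig'
  obtain ⟨z, ⟨hz1, hz2⟩, hz0⟩ := Submodule.exists_mem_ne_zero_of_ne_bot
    (p := S.img h a ⊓ S.mem a) (fun h0 => by rw [h0, finrank_bot] at hbig'; omega)
  obtain ⟨w, rfl⟩ := S.mem_img.1 hz1
  obtain ⟨v, hv⟩ := S.mem_mem.1 hz2
  rw [hxy] at hv hz0
  obtain ⟨a', ha'⟩ := S.exists_om_one ha
  have hyw : y w ≠ 0 := fun h0 => hz0 (by rw [h0, map_zero])
  have hxa : x a = S.om (x a) a' • a := S.om_eq_of_forall fun c => by
    have h1 := congrArg (S.pi c) hv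
    have h2 := congrArg (S.pi a') hv
    simp only [Setting.pi_tp, ha', one_smul] at h1 h2
    rw [h2, smul_smul] at h1
    rw [map_smul, LinearMap.smul_apply, smul_eq_mul, mul_comm]
    exact (smul_left_injective F hyw h1).symm
  intro z hz
  obtain ⟨u, rfl⟩ := S.mem_img.1 hz
  rw [← hgh, hxy, hxa, map_smul, LinearMap.smul_apply, map_smul]
  exact Submodule.smul_mem _ _ (S.tp_mem_img g a _)

/-- The dimension of the meet is large. -/
lemma le_add_of_meet (H : Over S M) (hos : OnlyScalar S M) (hB : 3 ≤ finrank F B) {δ : ℕ}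
    (hIH : ∀ g ∈ M, ∀ a d : A, a ≠ 0 → d ≠ 0 →
      δ < finrank F ↥(S.img g a ⊓ S.mem d) → S.IsT g)
    {g : V ≃ₗ[F] V} (hg : g ∈ M) (hgT : ¬ S.IsT g) {a d : A} (ha : a ≠ 0) (hd : d ≠ 0)
    (hδ : finrank F ↥(S.img g a ⊓ S.mem d) = δ) (hpos : 0 < δ) :
    finrank F B ≤ δ + finrank F A := by
  by_contra! hlt
  have key : ∀ v, S.be v v ≠ 0 → ∀ u ∈ S.fib g a d, S.be u v ≠ 0 → v ∈ S.fib g a d := by
    intro v hv u hu huv
    set k := S.tequiv (LinearEquiv.refl F A) (S.reflEquiv hv)
    have hst := H.stable_of_meet hIH hg ha (H.right_mem _ (S.be_refl hv)) (k := k) (by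
      have h1 := finrank_map_add_inf_ker (S.img g a) (S.con v)
      have h2 := Submodule.finrank_le ((S.img g a).map (S.con v))
      rw [S.finrank_img g ha] at h1
      refine lt_of_lt_of_le (b := finrank F ↥(S.img g a ⊓ LinearMap.ker (S.con v))) (by omega)
        (Submodule.finrank_mono fun x hx => ⟨⟨x, hx.1, ?_⟩, hx.1⟩)
      change k x = x
      rw [S.tequiv_refl_apply hv, LinearMap.mem_ker.1 hx.2, map_zero, LinearMap.zero_apply,
        smul_zero, sub_zero])
    have h1 := hst _ hu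
    simp only [k, S.tequiv_refl_apply hv, Setting.con_tp] at h1
    rw [Submodule.sub_mem_iff_right _ (S.mem_fib.1 hu), map_smul, LinearMap.smul_apply, smul_smul,
      Submodule.smul_mem_iff _ (mul_ne_zero (div_ne_zero S.two hv) huv)] at h1
    exact h1
  obtain ⟨u, hu, hu0⟩ := Submodule.exists_mem_ne_zero_of_ne_bot (p := S.fib g a d) fun h0 => by
    rw [← S.finrank_fib g a hd, h0, finrank_bot] at hδ
    omega
  obtain ⟨v₀, hv₀, huv₀⟩ := S.exists_nonsing_pair hu0
  have hv₀m := key v₀ hv₀ u hu huv₀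
  have hall : ∀ z, S.be z z ≠ 0 → z ∈ S.fib g a d := by
    intro z hz
    by_cases hor : S.be v₀ z = 0
    · have hor' : S.be z v₀ = 0 := by rw [S.be_symm]; exact hor
      obtain ⟨y, hy, hy0, hyz⟩ : ∃ y, S.be y y ≠ 0 ∧ S.be v₀ y ≠ 0 ∧ S.be y z ≠ 0 := by
        by_cases hsum : S.be v₀ v₀ + S.be z z = 0
        · obtain ⟨w, hw, hwo⟩ := S.exists_nonsing_orth ![v₀, z]
            (fun i => by fin_cases i <;> simp [hv₀, hz])
            (fun i j hij => by fin_cases i <;> fin_cases j <;> simp_all) (by omega)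
          have h1 : S.be w v₀ = 0 := hwo 0
          have h2 : S.be w z = 0 := hwo 1
          have h1' : S.be v₀ w = 0 := by rw [S.be_symm]; exact h1
          have h2' : S.be z w = 0 := by rw [S.be_symm]; exact h2
          refine ⟨v₀ + z + w, ?_, by simp [hor, h1', hv₀], by simp [hor, h2, hz]⟩
          simp only [map_add, LinearMap.add_apply, hor, hor', h1, h1', h2, h2', add_zero, zero_add]
          rwa [hsum, zero_add]
        · exact ⟨v₀ + z, by simpa [hor, hor'] using hsum, by simpa [hor] using hv₀,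
            by simpa [hor] using hz⟩
      exact key z hz y (key y hy v₀ hv₀m hy0) hyz
    · exact key z hz v₀ hv₀m hor
  have htop : S.fib g a d = ⊤ := eq_top_iff.2 (S.span_nonsing ▸ Submodule.span_le.2 hall)
  have hle : S.mem d ≤ S.img g a := fun x hx => by
    obtain ⟨w, rfl⟩ := S.mem_mem.1 hx
    exact S.mem_fib.1 (htop ▸ Submodule.mem_top)
  exact hgT (H.isT_of_maps hos hB hg ha (d := d) (le_of_eq (Submodule.eq_of_le_of_finrank_le hle
    (by rw [S.finrank_img g ha, S.finrank_mem hd])).symm))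

/-- The root element of the member does not stabilise the image. -/
lemma not_root_stable (H : Over S M) (hos : OnlyScalar S M) (hB : 3 ≤ finrank F B)
    (hdims : 4 ≤ finrank F A ∨ 5 ≤ finrank F B) (hA : 2 ≤ finrank F A)
    {g : V ≃ₗ[F] V} (hg : g ∈ M) (hgT : ¬ S.IsT g) {a d : A} (ha : a ≠ 0) (hd : d ≠ 0)
    (hlo : finrank F B ≤ finrank F (S.fib g a d) + finrank F A)
    (hst : ∀ x ∈ S.img g a, S.tequiv (S.omT 1 d) (LinearEquiv.refl F B) x ∈ S.img g a) :
    False := by
  set N := S.rootImg g a with hN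
  obtain ⟨d', hd'⟩ := S.exists_om_one hd
  have hRM : S.tequiv (S.omT 1 d) (LinearEquiv.refl F B) ∈ M := H.left_mem _ (S.om_omT 1 d)
  obtain ⟨c, hc⟩ := H.exists_scale hos hg hRM ha hst
  have hNd : ∀ w, N (S.tp d w) ∈ S.mem d := by
    intro w
    by_cases hc1 : c = 1
    · obtain ⟨Y, hY⟩ : ∃ Y, S.pi d Y = w :=
        ⟨S.tp (-d') w, by simp [S.om_skew d d', hd']⟩
      have h1 := hc Y
      rw [hc1, one_smul, S.tequiv_omT_apply, S.tequiv_omT_apply, one_smul, one_smul, map_add,
        add_right_inj, hY] at h1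
      rw [← h1]
      exact S.tp_mem d _
    · have h1 := hc (S.tp d w)
      have h2 : S.tequiv (S.omT 1 d) (LinearEquiv.refl F B) (S.tp d w) = S.tp d w := by
        rw [S.tequiv_omT_apply]; simp [S.om_alt]
      rw [h2, S.tequiv_omT_apply, one_smul] at h1
      have h3 : (c - 1) • N (S.tp d w) = S.tp d (S.pi d (N (S.tp d w))) := by
        rw [sub_smul, one_smul, ← h1, hN]; abel
      rw [← Submodule.smul_mem_iff _ (sub_ne_zero.2 hc1), h3]
      exact S.tp_mem d _
  obtain ⟨e, he, hey⟩ := H.inM_rootImg hg a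
  have hT := H.isT_of_stab hos hB he hd fun w => by
    rw [hey]; exact Submodule.add_mem _ (S.tp_mem d w) (hNd w)
  obtain ⟨y, hy⟩ := H.exists_y_of_rootImg_isT hos hB hg hgT ha hT hey
  set η : B →ₗ[F] B := y - LinearMap.id with hη
  have hNη : ∀ u w, N (S.tp u w) = S.tp u (η w) := fun u w => by
    have h1 := hey (S.tp u w)
    rw [hy] at h1
    simp [hη, h1, hN]
  set r := finrank F (LinearMap.range η)
  set b := Module.finBasis F (LinearMap.range η)
  set L : (Fin r → A) →ₗ[F] V := ∑ i, (S.tp.flip (b i : B)) ∘ₗ LinearMap.proj i with hLdef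
  have hL : ∀ f, L f = ∑ i, S.tp (f i) (b i : B) := fun f => by
    simp [hLdef, LinearMap.sum_apply]
    rfl
  have hLinj : Function.Injective L := by
    refine (injective_iff_map_eq_zero L).2 fun f hf => funext fun i => S.om_nd _ fun z => ?_
    have h1 := congrArg (S.pi z) hf
    rw [hL, map_sum, map_zero] at h1
    simp only [Setting.pi_tp] at h1
    exact Fintype.linearIndependent_iff.1
      (b.linearIndependent.map' (LinearMap.range η).subtype (Submodule.ker_subtype _)) _ h1 i
  have hLX : LinearMap.range L = S.img g a := by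
    refine le_antisymm ?_ fun x hx => ?_
    · rintro _ ⟨f, rfl⟩
      rw [hL]
      refine Submodule.sum_mem _ fun i _ => ?_
      obtain ⟨w, hw⟩ := LinearMap.mem_range.1 (b i).2
      rw [← hw, ← hNη]
      exact S.rootImg_mem g a _
    · obtain ⟨Y, rfl⟩ := S.rootImg_surj g ha hx
      rw [← hN, S.expand (Module.finBasis F B) Y, map_sum]
      refine Submodule.sum_mem _ fun j _ => ?_
      set w : LinearMap.range η := ⟨η (S.be.dualBasis S.be_nondeg (Module.finBasis F B) j),
        LinearMap.mem_range_self η _⟩ with hw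
      refine ⟨fun i => b.repr w i • S.con ((Module.finBasis F B) j) Y, ?_⟩
      rw [hL, hNη]
      conv_rhs => rw [show η _ = (w : B) from rfl, ← b.sum_repr w]
      simp only [map_smul, LinearMap.smul_apply, Submodule.coe_sum, Submodule.coe_smul, map_sum]
      rfl
  have hdim : r * finrank F A = finrank F B := by
    rw [← S.finrank_img g ha, ← hLX, LinearMap.finrank_range_of_inj hLinj,
      Module.finrank_pi_fintype]
    simp
  have hfib : S.fib g a d ≤ LinearMap.range η := fun w hw => by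
    obtain ⟨f, hf⟩ := (hLX ▸ S.mem_fib.1 hw : S.tp d w ∈ LinearMap.range L)
    have h1 := congrArg (S.pi d') hf
    rw [hL, map_sum, Setting.pi_tp, hd', one_smul] at h1
    rw [← h1]
    refine Submodule.sum_mem _ fun i _ => ?_
    rw [Setting.pi_tp]
    exact Submodule.smul_mem _ _ (b i).2
  have hδr := Submodule.finrank_mono hfib
  have hsing : ∀ u w, S.be (η u) (η w) = 0 := fun u w => by
    have h1 := H.img_isotropic hg (S.rootImg_mem g a (S.tp d u)) (S.rootImg_mem g a (S.tp d' w))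
    rw [← hN, hNη, hNη, S.form_tp, hd', one_mul] at h1
    exact h1
  have hskew : ∀ u w, S.be (η u) w + S.be u (η w) = 0 := fun u w => by
    have h1 := H.iso e he (S.tp d u) (S.tp d' w)
    rw [hy, hy, S.form_tp, S.form_tp, hd', one_mul, one_mul] at h1
    have h2 := hsing u w
    simp only [hη, LinearMap.sub_apply, LinearMap.id_apply, map_sub] at h2 ⊢
    linear_combination h1 - h2
  have hr2 : 2 ≤ r := by
    by_contra! hr
    obtain hr' | hr' : r = 0 ∨ r = 1 := by omega
    · rw [hr', zero_mul] at hdim; omega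
    · obtain ⟨w₀, hw₀⟩ : ∃ w, η w ≠ 0 := by
        by_contra! h0
        have h1 : LinearMap.range η = ⊥ := by
          rw [Submodule.eq_bot_iff]; rintro _ ⟨w, rfl⟩; exact h0 w
        rw [show r = finrank F (LinearMap.range η) from rfl, h1, finrank_bot] at hr'
        omega
      refine hw₀ (S.be_nd _ fun w => ?_)
      obtain ⟨k, hk⟩ := exists_smul_eq_of_finrank_eq_one
        (show finrank F (LinearMap.range η) = 1 from hr')
        (x := ⟨η w₀, LinearMap.mem_range_self η w₀⟩) (by simpa using hw₀)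
        ⟨η w, LinearMap.mem_range_self η w⟩
      have h1 : k • η w₀ = η w := congrArg Subtype.val hk
      have h2 : S.be (η w₀) w₀ = 0 := by
        have h3 := hskew w₀ w₀
        rw [S.be_symm w₀ (η w₀), ← two_mul] at h3
        exact (mul_eq_zero.1 h3).resolve_left S.two
      have h4 := hskew w w₀
      rw [← h1, map_smul, LinearMap.smul_apply, h2, smul_zero, zero_add] at h4
      rw [S.be_symm, h4]
  rcases hdims with h | h <;> nlinarith

/-- A meet of maximal dimension is non-degenerate. -/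
theorem step_of_meet (H : Over S M) (hos : OnlyScalar S M) (hB : 3 ≤ finrank F B)
    (hdims : 4 ≤ finrank F A ∨ 5 ≤ finrank F B) (hA : 2 ≤ finrank F A) {δ : ℕ}
    (hIH : ∀ g ∈ M, ∀ a d : A, a ≠ 0 → d ≠ 0 →
      δ < finrank F ↥(S.img g a ⊓ S.mem d) → S.IsT g)
    {g : V ≃ₗ[F] V} (hg : g ∈ M) (hgT : ¬ S.IsT g) {a d : A} (ha : a ≠ 0) (hd : d ≠ 0)
    (hδ : finrank F ↥(S.img g a ⊓ S.mem d) = δ) (hpos : 0 < δ) :
    Step S g a d ∧ finrank F B ≤ δ + finrank F A := by
  have hlo := H.le_add_of_meet hos hB hIH hg hgT ha hd hδ hpos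
  set R := S.tequiv (S.omT 1 d) (LinearEquiv.refl F B)
  have hR : ∀ Y, R Y = Y + S.tp d (S.pi d Y) := fun Y => by
    rw [S.tequiv_omT_apply, one_smul]
  have hno : ∀ P : Submodule F V, P ≤ (S.img g a).map (R : V →ₗ[F] V) ⊓ S.img g a →
      finrank F P ≤ δ := fun P hP => by
    by_contra! hlt
    refine H.not_root_stable hos hB hdims hA hg hgT ha hd ?_
      (H.stable_of_meet hIH hg ha (H.left_mem _ (S.om_omT 1 d))
        (lt_of_lt_of_le hlt (Submodule.finrank_mono hP)))
    rwa [S.finrank_fib g a hd, hδ]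
  have hfix : ∀ x ∈ S.img g a, S.pi d x = 0 →
      x ∈ (S.img g a).map (R : V →ₗ[F] V) ⊓ S.img g a := fun x hx h0 =>
    ⟨⟨x, hx, by change R x = x; rw [hR, h0, map_zero, add_zero]⟩, hx⟩
  have hDK : S.img g a ⊓ S.mem d ≤ S.img g a ⊓ LinearMap.ker (S.pi d) := fun x hx => by
    refine ⟨hx.1, ?_⟩
    obtain ⟨w, rfl⟩ := S.mem_mem.1 hx.2
    simp [S.om_alt]
  have hKD : S.img g a ⊓ LinearMap.ker (S.pi d) = S.img g a ⊓ S.mem d :=
    (Submodule.eq_of_le_of_finrank_le hDK (by
      rw [hδ]; exact hno _ fun x hx => hfix x hx.1 hx.2)).symm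
  have hmeet : ∀ x ∈ S.img g a, S.pi d x ∈ S.fib g a d → S.pi d x = 0 := by
    intro x hx hw
    by_contra h0
    have hRx : R x ∈ S.img g a := by rw [hR]; exact Submodule.add_mem _ hx hw
    have hlt : S.img g a ⊓ S.mem d < (S.img g a).map (R : V →ₗ[F] V) ⊓ S.img g a := by
      refine SetLike.lt_iff_le_and_exists.2 ⟨fun z hz => hfix z hz.1 (hDK hz).2, R x,
        ⟨⟨x, hx, rfl⟩, hRx⟩, fun hm => h0 ?_⟩
      have h1 : x ∈ S.mem d := by
        rw [← add_sub_cancel_right x (S.tp d (S.pi d x)), ← hR]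
        exact Submodule.sub_mem _ hm.2 (S.tp_mem d _)
      exact (hDK ⟨hx, h1⟩).2
    have := hno _ le_rfl
    have := Submodule.finrank_lt_finrank_of_lt hlt
    omega
  have hmap : (S.img g a).map (S.pi d) = S.be.orthogonal (S.fib g a d) := by
    refine Submodule.eq_of_le_of_finrank_le ?_ ?_
    · rintro _ ⟨x, hx, rfl⟩ w hw
      rw [S.be_symm, H.be_pi_fib hg hx hw]
    · have h1 := finrank_map_add_inf_ker (S.img g a) (S.pi d)
      rw [hKD, hδ, S.finrank_img g ha] at h1
      rw [LinearMap.BilinForm.finrank_orthogonal S.be_nondeg, S.finrank_fib g a hd, hδ]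
      omega
  refine ⟨⟨fun x hx h0 => (hKD.le ⟨hx, h0⟩).2,
    fun u hu => ?_, fun u hu huo => ?_⟩, hlo⟩
  · have h1 : u ∈ (S.img g a).map (S.pi d) := by
      rw [hmap]; exact fun w hw => by rw [S.be_symm, hu w hw]
    obtain ⟨x, hx, hxu⟩ := h1
    exact ⟨x, hx, hxu⟩
  · have h1 : u ∈ (S.img g a).map (S.pi d) := by
      rw [hmap]; exact fun w hw => by rw [S.be_symm, huo w hw]
    obtain ⟨x, hx, rfl⟩ := h1
    exact hmeet x hx hu

end Over

end CfsgLib.FormTensor91
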