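import Cfsg.Agent.FormTensor91.Orth

/-!
Non-singular vectors in the symmetric factor.
-/

set_option autoImplicit false
set_option linter.unusedSectionVars false

namespace CfsgLib.FormTensor91

open Module

variable {F A B V : Type*} [Field F] [AddCommGroup A] [Module F A] [AddCommGroup B]
  [Module F B] [AddCommGroup V] [Module F V] (S : Setting F A B V)

namespace Setting

/-- A subspace with a non-orthogonal pair has a non-singular vector. -/
lemma exists_nonsing_mem {P : Submodule F B} {u y : B} (hu : u ∈ P) (hy : y ∈ P)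
    (h : S.be u y ≠ 0) : ∃ v ∈ P, S.be v v ≠ 0 := by
  by_contra! h0
  have h1 := h0 (u + y) (P.add_mem hu hy)
  simp only [map_add, LinearMap.add_apply, h0 u hu, h0 y hy, S.be_symm y u, zero_add, add_zero,
    ← two_mul] at h1
  exact h ((mul_eq_zero.1 h1).resolve_left S.two)

/-- Fewer than `dim B` orthogonal non-singular vectors have a non-singular common orthogonal. -/
lemma exists_nonsing_orth [FiniteDimensional F B] {k : ℕ} (l : Fin k → B)
    (hn : ∀ i, S.be (l i) (l i) ≠ 0) (ho : ∀ i j, i ≠ j → S.be (l i) (l j) = 0)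
    (hk : k < finrank F B) : ∃ y, S.be y y ≠ 0 ∧ ∀ i, S.be y (l i) = 0 := by
  classical
  let P : B →ₗ[F] B := LinearMap.id -
    ∑ i, (S.be (l i) (l i))⁻¹ • (LinearMap.toSpanSingleton F B (l i)).comp (S.be.flip (l i))
  have hP : ∀ x, P x = x - ∑ i, ((S.be (l i) (l i))⁻¹ * S.be x (l i)) • l i := fun x => by
    simp [P, LinearMap.sum_apply, smul_smul]
  have hPo : ∀ x j, S.be (P x) (l j) = 0 := fun x j => by
    rw [hP, map_sub, LinearMap.sub_apply, map_sum, LinearMap.sum_apply,
      Finset.sum_eq_single j (fun i _ hij => by rw [map_smul, LinearMap.smul_apply, ho i j hij, smul_zero])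
        (fun h => absurd (Finset.mem_univ j) h)]
    rw [map_smul, LinearMap.smul_apply, smul_eq_mul, mul_right_comm, inv_mul_cancel₀ (hn j),
      one_mul, sub_self]
  obtain ⟨x, hx⟩ : ∃ x, P x ≠ 0 := by
    by_contra! h0
    have htop : Submodule.span F (Set.range l) = ⊤ := eq_top_iff.2 fun x _ => by
      have := h0 x
      rw [hP, sub_eq_zero] at this
      rw [this]
      exact Submodule.sum_mem _ fun i _ => Submodule.smul_mem _ _ (Submodule.subset_span ⟨i, rfl⟩)
    have := finrank_range_le_card (R := F) l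
    rw [Set.finrank, htop, finrank_top, Fintype.card_fin] at this
    omega
  obtain ⟨z, hz⟩ : ∃ z, S.be (P x) z ≠ 0 := by
    by_contra! h0
    exact hx (S.be_nd _ h0)
  let O : Submodule F B := ⨅ i, LinearMap.ker (S.be.flip (l i))
  have hO : ∀ y, y ∈ O ↔ ∀ i, S.be y (l i) = 0 := fun y => by simp [O, Submodule.mem_iInf]
  have hzP : S.be (P x) (P z) ≠ 0 := by
    rw [hP z, map_sub, map_sum]
    simp [map_smul, hPo, hz]
  obtain ⟨v, hv, hvv⟩ := S.exists_nonsing_mem ((hO _).2 (hPo x)) ((hO _).2 (hPo z)) hzP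
  exact ⟨v, hvv, (hO v).1 hv⟩

/-- A non-singular binary space represents everything. -/
lemma exists_norm_eq [Finite F] {a b : B} (ha : S.be a a ≠ 0) (hb : S.be b b ≠ 0)
    (hab : S.be a b = 0) (c : F) (hc : c ≠ 0) :
    ∃ x y : F, S.be (x • a + y • b) (x • a + y • b) = c := by
  have := Fintype.ofFinite F
  have hodd : Fintype.card F % 2 = 1 := FiniteField.odd_card_of_char_ne_two (fun h => S.two (by
    have := ringChar.Nat.cast_ringChar (R := F)
    rw [h] at this
    exact_mod_cast this))
  obtain ⟨x, y, hxy⟩ := FiniteField.exists_root_sum_quadratic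
    (f := Polynomial.C (S.be a a) * Polynomial.X ^ 2)
    (g := Polynomial.C (S.be b b) * Polynomial.X ^ 2 + Polynomial.C (-c))
    (Polynomial.degree_C_mul_X_pow 2 ha)
    (by rw [Polynomial.degree_add_eq_left_of_degree_lt] <;>
        simp [Polynomial.degree_C_mul_X_pow 2 hb, Polynomial.degree_C hc]) hodd
  simp only [Polynomial.eval_add, Polynomial.eval_mul, Polynomial.eval_C, Polynomial.eval_pow,
    Polynomial.eval_X] at hxy
  refine ⟨x, y, ?_⟩
  simp only [map_add, map_smul, LinearMap.add_apply, LinearMap.smul_apply, smul_eq_mul, hab,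
    S.be_symm b a]
  linear_combination hxy

/-- A linear map for which every non-singular vector of a non-degenerate subspace of dimension
at least three is an eigenvector is scalar there. -/
lemma eigen_scalar [FiniteDimensional F B] {P : Submodule F B}
    (hP : ∀ u ∈ P, u ≠ 0 → ∃ v ∈ P, S.be u v ≠ 0) (hdim : 3 ≤ finrank F P) (τ : B →ₗ[F] B)
    (heig : ∀ v ∈ P, S.be v v ≠ 0 → ∃ c : F, τ v = c • v) :
    ∃ c : F, ∀ v ∈ P, τ v = c • v := by
  obtain ⟨u₀, hu₀, hu₀0⟩ := Submodule.exists_mem_ne_zero_of_ne_bot (p := P) (fun h => by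
    rw [h, finrank_bot] at hdim; omega)
  obtain ⟨y₀, hy₀, huy⟩ := hP u₀ hu₀ hu₀0
  obtain ⟨v₀, hv₀, hv₀n⟩ := S.exists_nonsing_mem hu₀ hy₀ huy
  obtain ⟨c, hc⟩ := heig v₀ hv₀ hv₀n
  -- equal eigenvalues for pairs with a non-singular combination
  have pair : ∀ v w, v ∈ P → w ∈ P → S.be v v ≠ 0 → S.be w w ≠ 0 →
      ∀ a b : F, τ v = a • v → τ w = b • w → (S.be v w ≠ 0 ∨ S.be v v + S.be w w ≠ 0) →
      a = b := by
    intro v w hv hw hvn hwn a b ha hb hor
    by_cases hdep : ∃ k : F, w = k • v
    · obtain ⟨k, rfl⟩ := hdep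
      rw [map_smul, ha, smul_comm] at hb
      have hkv : k • v ≠ 0 := fun h0 => hwn (by simp [h0])
      exact smul_left_injective F hkv hb
    have hne : v ≠ 0 := fun h0 => hvn (by simp [h0])
    obtain ⟨k, hk, hkn⟩ : ∃ k : F, k ≠ 0 ∧ S.be (v + k • w) (v + k • w) ≠ 0 := by
      by_contra! h0
      have h1 := h0 1 one_ne_zero
      have h2 := h0 (-1) (by simp)
      simp only [map_add, map_smul, LinearMap.add_apply, LinearMap.smul_apply, smul_eq_mul,
        S.be_symm w v] at h1 h2
      have h3 : (2 : F) * (S.be v v + S.be w w) = 0 := by linear_combination h1 + h2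
      have h4 : (2 : F) * (2 * S.be v w) = 0 := by linear_combination h1 - h2
      rcases hor with hor | hor
      · exact hor ((mul_eq_zero.1 ((mul_eq_zero.1 h4).resolve_left S.two)).resolve_left S.two)
      · exact hor ((mul_eq_zero.1 h3).resolve_left S.two)
    obtain ⟨e, he⟩ := heig _ (P.add_mem hv (P.smul_mem k hw)) hkn
    rw [map_add, map_smul, ha, hb] at he
    have h5 : (a - e) • v + (k * (b - e)) • w = 0 := by
      rw [smul_add] at he
      linear_combination (norm := module) he
    have hbe : k * (b - e) = 0 := by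
      by_contra hne'
      exact hdep ⟨-(a - e) / (k * (b - e)), by
        rw [div_eq_inv_mul, ← smul_smul, neg_smul, ← eq_neg_of_add_eq_zero_right h5,
          inv_smul_smul₀ hne']⟩
    rw [hbe, zero_smul, add_zero, smul_eq_zero, or_iff_left hne, sub_eq_zero] at h5
    rw [h5, sub_eq_zero.1 ((mul_eq_zero.1 hbe).resolve_left hk)]
  have all : ∀ w ∈ P, S.be w w ≠ 0 → τ w = c • w := by
    intro w hw hwn
    obtain ⟨b, hb⟩ := heig w hw hwn
    by_cases hor : S.be v₀ w ≠ 0 ∨ S.be v₀ v₀ + S.be w w ≠ 0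
    · rw [hb, pair v₀ w hv₀ hw hv₀n hwn c b hc hb hor]
    push Not at hor
    obtain ⟨hvw, hsum⟩ := hor
    -- a vector pairing with both
    let O : Submodule F B := P ⊓ LinearMap.ker (S.be.flip v₀) ⊓ LinearMap.ker (S.be.flip w)
    have hOne : O ≠ ⊥ := by
      intro h0
      have h1 := LinearMap.finrank_range_add_finrank_ker
        (((S.be.flip v₀).prod (S.be.flip w)).comp P.subtype)
      have h2 : LinearMap.ker (((S.be.flip v₀).prod (S.be.flip w)).comp P.subtype) = ⊥ := by
        refine (Submodule.eq_bot_iff _).2 fun x hx => Subtype.ext ?_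
        have : (x : B) ∈ O := by
          have hx1 := congrArg Prod.fst (LinearMap.mem_ker.1 hx)
          have hx2 := congrArg Prod.snd (LinearMap.mem_ker.1 hx)
          exact ⟨⟨x.2, hx1⟩, hx2⟩
        rw [h0] at this
        exact (Submodule.mem_bot F).1 this
      rw [h2, finrank_bot, add_zero] at h1
      have h3 := Submodule.finrank_le
        (LinearMap.range (((S.be.flip v₀).prod (S.be.flip w)).comp P.subtype))
      rw [h1, Module.finrank_prod, Module.finrank_self] at h3
      omega
    obtain ⟨z₀, hz₀, hz₀0⟩ := Submodule.exists_mem_ne_zero_of_ne_bot hOne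
    obtain ⟨y, hy, hzy⟩ := hP z₀ hz₀.1.1 hz₀0
    have hzv : S.be z₀ v₀ = 0 := hz₀.1.2
    have hzw : S.be z₀ w = 0 := hz₀.2
    set y' := y - (S.be y v₀ / S.be v₀ v₀) • v₀ - (S.be y w / S.be w w) • w with hy'
    have hy'O : y' ∈ O := by
      refine ⟨⟨P.sub_mem (P.sub_mem hy (P.smul_mem _ hv₀)) (P.smul_mem _ hw), ?_⟩, ?_⟩
      · change S.be y' v₀ = 0
        simp [hy', map_sub, hvw, S.be_symm w v₀, hv₀n]
      · change S.be y' w = 0
        simp [hy', map_sub, hvw, hwn]
    obtain ⟨z, hz, hzn⟩ := S.exists_nonsing_mem hz₀ hy'O (by simpa [hy', map_sub, hzv, hzw] using hzy)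
    have hzv' : S.be z v₀ = 0 := hz.1.2
    have hzw' : S.be z w = 0 := hz.2
    set u := v₀ + w + z
    have hu : u ∈ P := P.add_mem (P.add_mem hv₀ hw) hz.1.1
    have hun : S.be u u ≠ 0 := by
      simp only [u, map_add, LinearMap.add_apply, hvw, hzv', hzw', S.be_symm w v₀, S.be_symm v₀ z,
        S.be_symm w z]
      intro h0
      exact hzn (by linear_combination h0 - hsum)
    obtain ⟨e, he⟩ := heig u hu hun
    have h1 := pair v₀ u hv₀ hu hv₀n hun c e hc he
      (Or.inl (by simpa [u, map_add, hvw, S.be_symm v₀ z, hzv'] using hv₀n))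
    have h2 := pair w u hw hu hwn hun b e hb he
      (Or.inl (by simpa [u, map_add, hvw, S.be_symm w v₀, S.be_symm w z, hzw'] using hwn))
    rw [hb, h1, h2]
  refine ⟨c, fun u hu => ?_⟩
  by_cases hun : S.be u u = 0
  · rcases eq_or_ne u 0 with rfl | hu0
    · simp
    obtain ⟨y, hy, huy⟩ := hP u hu hu0
    obtain ⟨v, hv, hvn⟩ := S.exists_nonsing_mem hu hy huy
    by_cases h1 : S.be (u + v) (u + v) = 0
    · have h2 : S.be (u - v) (u - v) ≠ 0 := by
        intro h2
        simp only [map_add, map_sub, LinearMap.add_apply, LinearMap.sub_apply, S.be_symm v u] at h1 h2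
        have : (2 : F) * S.be v v = 0 := by linear_combination h1 + h2 - 2 * hun
        exact hvn ((mul_eq_zero.1 this).resolve_left S.two)
      have e1 := all _ (P.sub_mem hu hv) h2
      rw [map_sub, all v hv hvn, smul_sub] at e1
      exact sub_left_injective e1
    · have e1 := all _ (P.add_mem hu hv) h1
      rw [map_add, all v hv hvn, smul_add] at e1
      exact add_right_cancel e1
  · exact all u hu hun

end Setting

end CfsgLib.FormTensor91
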